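import Cfsg.Agent.LW54.Basic

/-!
Multiply transitive groups in which an element fixing more than `k` points is trivial.
-/

set_option autoImplicit false

namespace CfsgLib.LW54

open MulAction Equiv

variable {G α : Type*} [Group G] [MulAction G α] [Finite G] [Fintype α] [DecidableEq α]

/-- All three-cycles of `Δ` are induced. -/
def Good (G : Type*) {α : Type*} [Group G] [MulAction G α] [Fintype α] [DecidableEq α] (Δ : Finset α) : Prop :=
  ∀ σ : Perm α, σ.support ⊆ Δ → σ.IsThreeCycle → ∃ g : G, ∀ x ∈ Δ, g • x = σ x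

/-- The double transposition `(a b)(c d)` is induced on `Γ`. -/
structure Dbl (Γ : Finset α) (a b c d : α) (v : G) : Prop where
  ma : a ∈ Γ
  mb : b ∈ Γ
  mc : c ∈ Γ
  md : d ∈ Γ
  nab : a ≠ b
  nac : a ≠ c
  nad : a ≠ d
  nbc : b ≠ c
  nbd : b ≠ d
  ncd : c ≠ d
  va : v • a = b
  vb : v • b = a
  vc : v • c = d
  vd : v • d = c
  rest : ∀ x ∈ Γ, x ≠ a → x ≠ b → x ≠ c → x ≠ d → v • x = x

theorem Dbl.fix_inter {Γ : Finset α} {a b c d : α} {v : G} (h : Dbl Γ a b c d v) :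
    fix v ∩ Γ = Γ \ {a, b, c, d} := by
  ext x
  simp only [Finset.mem_inter, mem_fix, Finset.mem_sdiff, Finset.mem_insert, Finset.mem_singleton]
  refine ⟨fun hx => ⟨hx.2, ?_⟩, fun hx => ⟨?_, hx.1⟩⟩
  · rintro (rfl | rfl | rfl | rfl)
    · exact h.nab (hx.1.symm.trans h.va)
    · exact h.nab (h.vb.symm.trans hx.1)
    · exact h.ncd (hx.1.symm.trans h.vc)
    · exact h.ncd (h.vd.symm.trans hx.1)
  · have := hx.2
    push_neg at this
    exact h.rest x hx.1 this.1 this.2.1 this.2.2.1 this.2.2.2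

theorem Dbl.card_fix {Γ : Finset α} {a b c d : α} {v : G} (h : Dbl Γ a b c d v) :
    (fix v : Finset α).card + 4 = (fix v \ Γ).card + Γ.card := by
  have h4 : ({a, b, c, d} : Finset α).card = 4 :=
    Finset.card_eq_four.mpr ⟨a, b, c, d, h.nab, h.nac, h.nad, h.nbc, h.nbd, h.ncd, rfl⟩
  have hsub : ({a, b, c, d} : Finset α) ⊆ Γ := by
    simp [Finset.insert_subset_iff, h.ma, h.mb, h.mc, h.md]
  have h1 := Finset.card_inter_add_card_sdiff (fix v) Γ
  rw [h.fix_inter, Finset.card_sdiff_of_subset hsub, h4] at h1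
  have := Finset.card_le_card hsub
  omega

theorem Dbl.maps {Γ : Finset α} {a b c d : α} {v : G} (h : Dbl Γ a b c d v) :
    ∀ x ∈ Γ, v • x ∈ Γ := by
  intro x hx
  by_cases hxa : x = a
  · rw [hxa, h.va]; exact h.mb
  by_cases hxb : x = b
  · rw [hxb, h.vb]; exact h.ma
  by_cases hxc : x = c
  · rw [hxc, h.vc]; exact h.md
  by_cases hxd : x = d
  · rw [hxd, h.vd]; exact h.mc
  rw [h.rest x hx hxa hxb hxc hxd]
  exact hx

variable {k : ℕ} (hk : 4 ≤ k) (hn : k < Fintype.card α) (hK : KT G α k)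
  (hsemi : ∀ g : G, g ≠ 1 → (fix g : Finset α).card ≤ k)
  {h : ℕ} (hh : ∀ Γ : Finset α, Γ.card = k → Nat.card (fixingSubgroup G (Γ : Set α)) = h)

include hsemi in
omit [Finite G] in
theorem eq_one_of_fix {Γ : Finset α} (hΓ : Γ.card = k) {g : G} (hg : g ∈ fixingSubgroup G (Γ : Set α))
    {x : α} (hx : x ∉ Γ) (hgx : g • x = x) : g = 1 := by
  by_contra hne
  have : insert x Γ ⊆ fix g := fun y hy => by
    rw [mem_fix]
    rcases Finset.mem_insert.mp hy with rfl | hy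
    · exact hgx
    · exact mem_fixing.mp hg y hy
  have := (Finset.card_le_card this).trans (hsemi g hne)
  rw [Finset.card_insert_of_notMem hx] at this
  omega

include hK in
theorem exists_dbl_conj {Γ₀ Γ : Finset α} (hΓ₀ : Γ₀.card = k) (hΓ : Γ.card = k) {a₀ b₀ c₀ d₀ : α} {u : G}
    (hu : Dbl Γ₀ a₀ b₀ c₀ d₀ u) {a b c d : α} (ha : a ∈ Γ) (hb : b ∈ Γ) (hc : c ∈ Γ) (hd : d ∈ Γ)
    (hab : a ≠ b) (hac : a ≠ c) (had : a ≠ d) (hbc : b ≠ c) (hbd : b ≠ d) (hcd : c ≠ d) :
    ∃ g : G, Dbl Γ a b c d (g * u * g⁻¹) := by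
  classical
  let E := Finset.equivOfCardEq (hΓ₀.trans hΓ.symm)
  let x : Fin 4 ↪ ↥Γ := ⟨![E ⟨a₀, hu.ma⟩, E ⟨b₀, hu.mb⟩, E ⟨c₀, hu.mc⟩, E ⟨d₀, hu.md⟩], by
    intro i j hij
    fin_cases i <;> fin_cases j <;>
      simp_all [hu.nab, hu.nac, hu.nad, hu.nbc, hu.nbd, hu.ncd, hu.nab.symm, hu.nac.symm,
        hu.nad.symm, hu.nbc.symm, hu.nbd.symm, hu.ncd.symm]⟩
  let y : Fin 4 ↪ ↥Γ := ⟨![⟨a, ha⟩, ⟨b, hb⟩, ⟨c, hc⟩, ⟨d, hd⟩], by
    intro i j hij
    fin_cases i <;> fin_cases j <;> simp_all [eq_comm]⟩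
  obtain ⟨τ, hτ⟩ := Perm.exists_extending_pair x y x.injective y.injective
  let f : α → α := fun z => if hz : z ∈ Γ₀ then (τ (E ⟨z, hz⟩) : α) else z
  have hf : ∀ z (hz : z ∈ Γ₀), f z = τ (E ⟨z, hz⟩) := fun z hz => dif_pos hz
  obtain ⟨g, hg⟩ := hK Γ₀ f hΓ₀.le (fun z hz w hw hzw => by
    rw [Finset.mem_coe] at hz hw
    rw [hf z hz, hf w hw] at hzw
    simpa using hzw)
  have ea : g • a₀ = a := by rw [hg _ hu.ma, hf _ hu.ma]; exact congrArg Subtype.val (hτ 0)
  have eb : g • b₀ = b := by rw [hg _ hu.mb, hf _ hu.mb]; exact congrArg Subtype.val (hτ 1)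
  have ec : g • c₀ = c := by rw [hg _ hu.mc, hf _ hu.mc]; exact congrArg Subtype.val (hτ 2)
  have ed : g • d₀ = d := by rw [hg _ hu.md, hf _ hu.md]; exact congrArg Subtype.val (hτ 3)
  have img : Γ₀.image (g • ·) = Γ := by
    refine Finset.eq_of_subset_of_card_le (fun z hz => ?_)
      (by rw [Finset.card_image_of_injective _ (MulAction.injective g), hΓ₀, hΓ])
    obtain ⟨w, hw, rfl⟩ := Finset.mem_image.mp hz
    show g • w ∈ Γ
    rw [hg w hw, hf w hw]
    exact (τ _).2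
  have key : ∀ z w : α, u • z = w → (g * u * g⁻¹) • (g • z) = g • w := fun z w h => by
    rw [mul_smul, mul_smul, inv_smul_smul, h]
  refine ⟨g, ha, hb, hc, hd, hab, hac, had, hbc, hbd, hcd, ?_, ?_, ?_, ?_, fun z hz za zb zc zd => ?_⟩
  · rw [← ea, ← eb]; exact key _ _ hu.va
  · rw [← ea, ← eb]; exact key _ _ hu.vb
  · rw [← ec, ← ed]; exact key _ _ hu.vc
  · rw [← ec, ← ed]; exact key _ _ hu.vd
  obtain ⟨w, hw, rfl⟩ := Finset.mem_image.mp (img ▸ hz)
  exact key _ _ (hu.rest w hw (fun e => za (e ▸ ea)) (fun e => zb (e ▸ eb)) (fun e => zc (e ▸ ec))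
    (fun e => zd (e ▸ ed)))

include hk hK hsemi hh in
/-- With at most two orbits of a fixing subgroup outside, every set is good. -/
theorem good_of_two (hm : Fintype.card α ≤ k + 2 * h) {Δ : Finset α} (hΔ : Δ.card = k + 1) :
    Good G Δ := by
  classical
  intro σ hσ h3
  obtain ⟨a, ha, hσa⟩ : ∃ a ∈ Δ, σ a = a := by
    by_contra hcon
    push_neg at hcon
    have := Finset.card_le_card (show Δ ⊆ σ.support from fun x hx => Perm.mem_support.mpr (hcon x hx))
    rw [h3.card_support, hΔ] at this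
    omega
  set Γ := Δ.erase a with hΓdef
  have hΓc : Γ.card = k := by rw [hΓdef, Finset.card_erase_of_mem ha, hΔ]; omega
  have haΓ : a ∉ Γ := Finset.notMem_erase a Δ
  obtain ⟨g, hg⟩ := hK.perm hΓc.le σ⁻¹
  have hmapσ : ∀ x ∈ Γ, σ⁻¹ x ∈ Γ := fun x hx => by
    rw [hΓdef, Finset.mem_erase] at hx ⊢
    constructor
    · intro e
      apply hx.1
      rw [← σ.apply_symm_apply x, show σ.symm x = a from e, hσa]
    · by_cases hs : x ∈ σ⁻¹.support
      · exact hσ (by rw [← Perm.support_inv]; exact Perm.apply_mem_support.mpr hs)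
      · rw [Perm.notMem_support.mp hs]; exact hx.2
  have hσ2 : σ⁻¹ * σ⁻¹ = σ := by
    have h := pow_orderOf_eq_one σ
    rw [h3.orderOf, pow_succ, pow_two, mul_eq_one_iff_eq_inv] at h
    rw [← mul_inv_rev, h, inv_inv]
  have hgg : ∀ x ∈ Γ, (g * g) • x = σ x := fun x hx => by
    rw [mul_smul, hg x hx, hg _ (hmapσ x hx), ← Perm.mul_apply, hσ2]
  have himg : Γ.image (g • ·) = Γ := by
    refine Finset.eq_of_subset_of_card_le (fun z hz => ?_)
      (by rw [Finset.card_image_of_injective _ (MulAction.injective g)])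
    obtain ⟨w, hw, rfl⟩ := Finset.mem_image.mp hz
    show g • w ∈ Γ
    rw [hg w hw]; exact hmapσ w hw
  have hout : ∀ x, x ∉ Γ → g • x ∉ Γ := fun x hx h' => by
    rw [← himg] at h'
    obtain ⟨w, hw, hwx⟩ := Finset.mem_image.mp h'
    exact hx (MulAction.injective g hwx ▸ hw)
  set H := fixingSubgroup G (Γ : Set α) with hH
  -- two of the three points share an orbit
  set w := g • a with hw
  set w' := g • w with hw'
  have hcase : (∃ x ∈ H, x • w = a) ∨ (∃ x ∈ H, x • w' = a) ∨ (∃ x ∈ H, x • w = w') := by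
    by_contra hcon
    push_neg at hcon
    obtain ⟨n1, n2, n3⟩ := hcon
    have hcard : ∀ x, x ∉ Γ →
        (Finset.univ.filter fun y => ∃ z ∈ H, z • x = y).card = h := by
      intro x hx
      rw [← hh Γ hΓc, ← Nat.card_eq_finsetCard]
      refine Nat.card_congr (Equiv.symm (Equiv.ofBijective
        (fun z => ⟨z.1 • x, by simp only [Finset.mem_filter, Finset.mem_univ, true_and]; exact ⟨z.1, z.2, rfl⟩⟩) ?_))
      refine ⟨fun z z' hzz => ?_, fun y => ?_⟩
      · have h' := congrArg Subtype.val hzz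
        simp only at h'
        exact Subtype.ext (inv_mul_eq_one.mp (eq_one_of_fix hsemi hΓc (mul_mem (inv_mem z'.2) z.2) hx
          (by rw [mul_smul, h', inv_smul_smul]))).symm
      · obtain ⟨z, hz, hzy⟩ := (Finset.mem_filter.mp y.2).2
        exact ⟨⟨z, hz⟩, Subtype.ext hzy⟩
    set O := fun x : α => Finset.univ.filter fun y => ∃ z ∈ H, z • x = y with hO
    have hdisj : ∀ x y, (∀ z ∈ H, z • x ≠ y) → Disjoint (O x) (O y) := by
      intro x y hxy
      rw [Finset.disjoint_left]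
      intro t ht ht'
      simp only [hO, Finset.mem_filter, Finset.mem_univ, true_and] at ht ht'
      obtain ⟨z, hz, rfl⟩ := ht
      obtain ⟨z', hz', hzz⟩ := ht'
      exact hxy (z'⁻¹ * z) (mul_mem (inv_mem hz') hz) (by rw [mul_smul, ← hzz, inv_smul_smul])
    have hwΓ : w ∉ Γ := hout a haΓ
    have hsub : O w ∪ O w' ∪ O a ⊆ Γᶜ := by
      intro t ht
      simp only [hO, Finset.mem_union, Finset.mem_filter, Finset.mem_univ, true_and] at ht
      rw [Finset.mem_compl]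
      intro htΓ
      rcases ht with (⟨z, hz, rfl⟩ | ⟨z, hz, rfl⟩) | ⟨z, hz, rfl⟩
      · exact hwΓ (MulAction.injective z (mem_fixing.mp hz _ htΓ) ▸ htΓ)
      · have e : z • w' = w' := MulAction.injective z (mem_fixing.mp hz _ htΓ)
        exact hout w hwΓ (show w' ∈ Γ from e ▸ htΓ)
      · exact haΓ (MulAction.injective z (mem_fixing.mp hz _ htΓ) ▸ htΓ)
    have := Finset.card_le_card hsub
    rw [Finset.card_union_of_disjoint, Finset.card_union_of_disjoint (hdisj w w' n3), Finset.card_compl,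
      hcard w hwΓ, hcard w' (hout w hwΓ), hcard a haΓ, hΓc] at this
    · have hpos : 0 < h := hh Γ hΓc ▸ Nat.card_pos
      omega
    · exact Finset.disjoint_union_left.mpr ⟨hdisj w a n1, hdisj w' a n2⟩
  have fin : ∀ q : G, (∀ x ∈ Γ, q • x = σ x) → q • a = a → ∃ q : G, ∀ x ∈ Δ, q • x = σ x := by
    intro q hq hqa
    refine ⟨q, fun x hx => ?_⟩
    by_cases hxa : x = a
    · rw [hxa, hqa, hσa]
    · exact hq x (Finset.mem_erase.mpr ⟨hxa, hx⟩)
  have hstab : ∀ x ∈ Γ, g⁻¹ • x ∈ Γ := fun x hx => by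
    obtain ⟨w, hw, rfl⟩ := Finset.mem_image.mp (himg.symm ▸ hx)
    simpa using hw
  have case1 : ∀ z ∈ H, z • w = a → ∃ q : G, ∀ x ∈ Δ, q • x = σ x := by
    intro z hz hza
    refine fin (z * g * (z * g)) (fun x hx => ?_) (by simp only [mul_smul, ← hw, hza])
    have e1 : (z * g) • x = g • x := by
      rw [mul_smul, mem_fixing.mp hz _ (by rw [hg x hx]; exact hmapσ x hx)]
    have e2 : g • (g • x) ∈ Γ := by
      rw [hg x hx, hg _ (hmapσ x hx)]; exact hmapσ _ (hmapσ x hx)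
    rw [mul_smul (z * g), e1, mul_smul z g, mem_fixing.mp hz _ e2, ← mul_smul, hgg x hx]
  rcases hcase with ⟨z, hz, hza⟩ | ⟨z, hz, hza⟩ | ⟨z, hz, hza⟩
  · exact case1 z hz hza
  · refine fin (z * (g * g)) (fun x hx => ?_) (by rw [mul_smul z, mul_smul, ← hw, ← hw', hza])
    rw [mul_smul z, hgg x hx, mem_fixing.mp hz]
    rw [← hgg x hx, mul_smul, hg x hx, hg _ (hmapσ x hx)]
    exact hmapσ _ (hmapσ x hx)
  · refine case1 (g⁻¹ * z⁻¹ * g) (mem_fixing.mpr fun x hx => ?_) ?_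
    · have hgx : g • x ∈ Γ := by rw [hg x hx]; exact hmapσ x hx
      rw [mul_smul, mul_smul, mem_fixing.mp (inv_mem hz) _ hgx, inv_smul_smul]
    · rw [mul_smul, mul_smul, ← hw', ← hza, inv_smul_smul, hw, inv_smul_smul]

/-- An involution with one or two fixed points outside inverts a fixing subgroup of odd order. -/
theorem inverts (hodd : Odd h) {Γ : Finset α} (hΓ : Γ.card = k)
    (hh : ∀ Γ : Finset α, Γ.card = k → Nat.card (fixingSubgroup G (Γ : Set α)) = h)
    (hsemi : ∀ g : G, g ≠ 1 → (fix g : Finset α).card ≤ k) {v : G} (hv : v * v = 1)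
    (hmap : ∀ x ∈ Γ, v • x ∈ Γ) (hne : (fix v \ Γ).Nonempty) (hle : (fix v \ Γ).card ≤ 2) :
    (∀ x ∈ fixingSubgroup G (Γ : Set α), Commute v x → x = 1) ∧
      ∀ x ∈ fixingSubgroup G (Γ : Set α), v * x * v = x⁻¹ := by
  classical
  set H := fixingSubgroup G (Γ : Set α) with hH
  have hord : ∀ x ∈ H, Odd (orderOf x) := fun x hx =>
    (hh Γ hΓ ▸ hodd : Odd (Nat.card H)).of_dvd_nat (Subgroup.orderOf_dvd_natCard H hx)
  have h1 : ∀ x ∈ H, Commute v x → x = 1 := by
    intro x hx hc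
    obtain ⟨e, he⟩ := hne
    rw [Finset.mem_sdiff] at he
    have hmem : ∀ y : α, y ∈ fix v \ Γ → x • y ∈ fix v \ Γ := fun y hy => by
      rw [Finset.mem_sdiff] at hy ⊢
      exact ⟨smul_mem_fix_of_commute hc hy.1, fun h' =>
        hy.2 (MulAction.injective x (mem_fixing.mp hx _ h') ▸ h')⟩
    have h2 : (x * x) • e = e := by
      by_contra hne2
      rw [mul_smul] at hne2
      have e1 := hmem e (Finset.mem_sdiff.mpr he)
      have e2 := hmem _ e1
      have : x • e ≠ e := fun h' => hne2 (by rw [h', h'])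
      have hs : ({e, x • e, x • x • e} : Finset α) ⊆ fix v \ Γ := by
        simp [Finset.insert_subset_iff, he, Finset.mem_sdiff.mp e1, Finset.mem_sdiff.mp e2]
      have h3 : ({e, x • e, x • x • e} : Finset α).card = 3 :=
        Finset.card_eq_three.mpr ⟨_, _, _, this.symm, Ne.symm hne2,
          fun h' => this (MulAction.injective x h'.symm), rfl⟩
      have := Finset.card_le_card hs
      omega
    have hxx := eq_one_of_fix hsemi hΓ (mul_mem hx hx) he.2 h2
    by_contra hx1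
    have := hord x hx
    rw [orderOf_eq_prime (by rw [pow_two, hxx]) hx1] at this
    exact (Nat.not_even_iff_odd.mpr this) even_two
  refine ⟨h1, ?_⟩
  have hnorm : ∀ x ∈ H, v * x * v ∈ H := fun x hx => mem_fixing.mpr fun a ha => by
    rw [mul_smul, mul_smul, mem_fixing.mp hx _ (hmap a ha), ← mul_smul, hv, one_smul]
  let φ : H → H := fun x => ⟨x.1⁻¹ * (v * x.1 * v), mul_mem (inv_mem x.2) (hnorm _ x.2)⟩
  have hinj : Function.Injective φ := by
    intro x y hxy
    have h := congrArg Subtype.val hxy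
    simp only [φ] at h
    have hc : Commute v (y.1 * x.1⁻¹) := by
      have h4 : y.1 * x.1⁻¹ = v * (y.1 * x.1⁻¹) * v := by
        calc y.1 * x.1⁻¹ = y.1 * (x.1⁻¹ * (v * x.1 * v)) * (v * x.1 * v)⁻¹ := by group
          _ = y.1 * (y.1⁻¹ * (v * y.1 * v)) * (v * x.1 * v)⁻¹ := by rw [h]
          _ = v * y.1 * (v * v⁻¹) * (x.1⁻¹ * v⁻¹) := by group
          _ = v * (y.1 * x.1⁻¹) * v := by
              rw [inv_eq_of_mul_eq_one_right hv, hv]; group
      show v * _ = _ * v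
      calc v * (y.1 * x.1⁻¹) = v * (y.1 * x.1⁻¹) * (v * v) := by rw [hv, mul_one]
        _ = (y.1 * x.1⁻¹) * v := by rw [← mul_assoc, ← h4]
    exact Subtype.ext (mul_inv_eq_one.mp (h1 _ (mul_mem y.2 (inv_mem x.2)) hc)).symm
  intro x hx
  obtain ⟨y, hy⟩ := Finite.surjective_of_injective hinj ⟨x, hx⟩
  have hy' : y.1⁻¹ * (v * y.1 * v) = x := congrArg Subtype.val hy
  rw [← hy', mul_inv_rev, inv_inv, mul_inv_rev, mul_inv_rev, inv_eq_of_mul_eq_one_right hv]
  calc v * (y.1⁻¹ * (v * y.1 * v)) * v = v * y.1⁻¹ * v * y.1 * (v * v) := by group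
    _ = v * (y.1⁻¹ * v) * y.1 := by rw [hv]; group

end CfsgLib.LW54
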