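import Cfsg.Agent.LW54.Exceptions

/-!
Degrees of the exceptional groups: the assembly.
-/

set_option autoImplicit false

namespace CfsgLib.LW54

open MulAction Equiv

universe u

variable {α : Type u} [Fintype α] [DecidableEq α] {G : Subgroup (Perm α)}

/-- Two conjugates with one common moved point. -/
theorem no_small_support {j L : ℕ} (hn : Fintype.card α = j + 2 * L) (hL2 : 2 * L ≤ j + 1)
    (hL : 2 ≤ L) (hK : KT G α j)
    (h1 : ∀ Δ : Finset α, Δ.card = j + 1 → Nat.card (fixingSubgroup G (Δ : Set α)) = 1)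
    {x : G} (hx1 : x ≠ 1) (hx : (fix x : Finset α).card = j) : False := by
  classical
  set S : Finset α := (fix x)ᶜ with hS
  have hSc : S.card = 2 * L := by rw [hS, Finset.card_compl, hx, hn]; omega
  obtain ⟨o, ho⟩ := Finset.card_pos.mp (show 0 < S.card by omega)
  have hTc : (S.erase o).card = 2 * L - 1 := by rw [Finset.card_erase_of_mem ho, hSc]
  obtain ⟨Y, hYF, hYc⟩ := Finset.exists_subset_card_eq (s := (fix x : Finset α)) (n := 2 * L - 1)
    (by rw [hx]; omega)
  let E := Finset.equivOfCardEq (hTc.trans hYc.symm)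
  let f : α → α := fun z => if hz : z ∈ S.erase o then (E ⟨z, hz⟩ : α) else o
  -- choose the common point
  obtain ⟨g, p, hgS, hgp⟩ : ∃ g : G, ∃ p, (∀ z ∈ S, g • z ∈ S → g • z = p) ∧ p ∈ S ∧ ∃ z ∈ S, g • z = p := by
    have hfY : ∀ z (hz : z ∈ S.erase o), f z ∈ Y := fun z hz => by
      simp only [f, dif_pos hz]; exact (E _).2
    have hYS : ∀ z ∈ Y, z ∉ S := fun z hz h' => Finset.mem_compl.mp h' (hYF hz)
    have hinj : Set.InjOn f (S : Set α) := by
      intro z hz w hw hzw
      rw [Finset.mem_coe] at hz hw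
      by_cases hzo : z ∈ S.erase o <;> by_cases hwo : w ∈ S.erase o
      · simp only [f, dif_pos hzo, dif_pos hwo] at hzw
        exact congrArg Subtype.val (E.injective (Subtype.ext hzw))
      · exfalso
        simp only [f, dif_neg hwo] at hzw
        exact hYS _ (hfY z hzo) (by simpa only [f, hzw] using ho)
      · exfalso
        simp only [f, dif_neg hzo] at hzw
        exact hYS _ (hfY w hwo) (by simpa only [f, ← hzw] using ho)
      · simp only [Finset.mem_erase, not_and, hz, hw] at hzo hwo
        have e1 : z = o := by tauto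
        have e2 : w = o := by tauto
        rw [e1, e2]
    rcases Nat.lt_or_ge j (2 * L) with hlt | hge
    · -- the last image is forced
      obtain ⟨g, hg⟩ := hK (S.erase o) f (by omega) (hinj.mono (Finset.coe_subset.mpr (Finset.erase_subset _ _)))
      have hYeq : Y = fix x := Finset.eq_of_subset_of_card_le hYF (by omega)
      have himg : (S.erase o).image (g • ·) = fix x := by
        rw [← hYeq]
        refine Finset.eq_of_subset_of_card_le (fun z hz => ?_)
          (by rw [Finset.card_image_of_injective _ (MulAction.injective g), hTc, hYc])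
        obtain ⟨w, hw, rfl⟩ := Finset.mem_image.mp hz
        show g • w ∈ Y
        rw [hg w hw]; exact hfY w hw
      have hgo : g • o ∈ S := by
        rw [hS, Finset.mem_compl, ← himg, Finset.mem_image]
        rintro ⟨w, hw, hwe⟩
        exact (Finset.mem_erase.mp hw).1 (MulAction.injective g hwe)
      refine ⟨g, g • o, fun z hz hgz => ?_, hgo, o, ho, rfl⟩
      by_cases hzo : z = o
      · rw [hzo]
      · have hmem : z ∈ S.erase o := Finset.mem_erase.mpr ⟨hzo, hz⟩
        exact absurd hgz (by rw [hg z hmem]; exact hYS _ (hfY z hmem))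
    · obtain ⟨g, hg⟩ := hK S f (by omega) hinj
      refine ⟨g, o, fun z hz hgz => ?_, ho, o, ho, by rw [hg o ho]; simp [f]⟩
      by_cases hzo : z = o
      · subst hzo; rw [hg z hz]; simp [f]
      · have hmem : z ∈ S.erase o := Finset.mem_erase.mpr ⟨hzo, hz⟩
        exact absurd hgz (by rw [hg z hz]; exact hYS _ (hfY z hmem))
  obtain ⟨hpS, z₀, hz₀, hz₀p⟩ := hgp
  have hxS : ∀ z, z ∈ S ↔ x • z ≠ z := fun z => by rw [hS, Finset.mem_compl, mem_fix]
  set y := g * x * g⁻¹ with hy
  have hyT : ∀ z, y • z ≠ z ↔ g⁻¹ • z ∈ S := fun z => by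
    rw [hxS, hy, mul_smul, mul_smul, ne_eq, ne_eq, eq_inv_smul_iff]
  have hboth : ∀ z, z ∈ S → y • z ≠ z → z = p := fun z hz hyz => by
    have := hgS (g⁻¹ • z) ((hyT z).mp hyz) (by rwa [smul_inv_smul])
    rwa [smul_inv_smul] at this
  have hyp : y • p ≠ p := (hyT p).mpr (by rw [← hz₀p, inv_smul_smul]; exact hz₀)
  have hxp : x • p ≠ p := (hxS p).mp hpS
  have fixinv : ∀ (t : G) (z : α), t • z = z → t⁻¹ • z = z := fun t z h => by
    rw [inv_smul_eq_iff, h]
  have movinv : ∀ (t : G) (z : α), t • z ≠ z → t • t⁻¹ • z ≠ t⁻¹ • z := fun t z h h' => by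
    rw [smul_inv_smul] at h'
    exact h (by rw [h', smul_inv_smul]; exact h')
  set c := x * y * x⁻¹ * y⁻¹ with hc
  have hfixc : ∀ z, z ∉ ({p, x • p, y • p} : Finset α) → c • z = z := by
    intro z hz
    simp only [Finset.mem_insert, Finset.mem_singleton, not_or] at hz
    obtain ⟨zp, zx, zy⟩ := hz
    rw [hc, mul_smul, mul_smul, mul_smul]
    by_cases hyz : y • z = z
    · rw [fixinv y z hyz]
      by_cases hxz : x • z = z
      · rw [fixinv x z hxz, hyz, hxz]
      · have h5 : x⁻¹ • z ∈ S := (hxS _).mpr (movinv x z hxz)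
        have h6 : x⁻¹ • z ≠ p := fun h' => zx (by rw [← h', smul_inv_smul])
        have h7 : y • x⁻¹ • z = x⁻¹ • z := by
          by_contra h'
          exact h6 (hboth _ h5 h')
        rw [h7, smul_inv_smul]
    · have hxz : x • z = z := by
        by_contra h'
        exact zp (hboth z ((hxS z).mpr h') hyz)
      have h5 : y • y⁻¹ • z ≠ y⁻¹ • z := movinv y z hyz
      have h6 : y⁻¹ • z ≠ p := fun h' => zy (by rw [← h', smul_inv_smul])
      have h7 : x • y⁻¹ • z = y⁻¹ • z := by
        by_contra h'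
        exact h6 (hboth _ ((hxS _).mpr h') h5)
      rw [fixinv x _ h7, smul_inv_smul, hxz]
  obtain ⟨Δ, hsub, hΔ⟩ := Finset.exists_subset_card_eq
    (s := ({p, x • p, y • p} : Finset α)ᶜ) (n := j + 1)
    (by rw [Finset.card_compl, hn]
        have := Finset.card_le_three (a := p) (b := x • p) (c := y • p)
        omega)
  have hc1 : c = 1 := eq_of_agree (h1 Δ hΔ) fun z hz => by
    rw [one_smul]; exact hfixc z (Finset.mem_compl.mp (hsub hz))
  have hcomm : x * y = y * x := by
    calc x * y = c * (y * x) := by rw [hc]; group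
      _ = y * x := by rw [hc1, one_mul]
  have h5 : y • x • p ≠ x • p := by
    rw [← mul_smul, ← hcomm, mul_smul]
    exact fun h' => hyp (MulAction.injective x h')
  have h6 : x • p ∈ S := (hxS _).mpr fun h' => hxp (MulAction.injective x h')
  exact hxp (hboth _ h6 h5)

theorem eq_alternating {k : ℕ} (hk : k + 2 = Fintype.card α) (hK : KT G α k) (hnot : ¬ KT G α (k + 1)) :
    G = alternatingGroup α := by
  have hle : alternatingGroup α ≤ G := _root_.IsMultiplyPretransitive.alternatingGroup_le α G (by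
    rw [Nat.card_eq_fintype_card, ← hk]; exact pretransitive_of_kt hK)
  have hne : G ≠ ⊤ := by
    rintro rfl
    refine hnot fun Γ f _ hf => ?_
    obtain ⟨σ, hσ⟩ := Perm.exists_extending_pair (fun x : ↥Γ => (x : α)) (fun x : ↥Γ => f x)
      Subtype.val_injective (fun x y hxy => Subtype.ext (hf x.2 y.2 hxy))
    exact ⟨⟨σ, Subgroup.mem_top σ⟩, fun a ha => hσ ⟨a, ha⟩⟩
  haveI : Nontrivial α := Fintype.one_lt_card_iff_nontrivial.mp (by omega)
  refine Perm.eq_alternatingGroup_of_index_eq_two ?_
  have hdvd := Subgroup.index_dvd_of_le hle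
  rw [alternatingGroup.index_eq_two] at hdvd
  rcases (Nat.dvd_prime Nat.prime_two).mp hdvd with h | h
  · exact absurd (Subgroup.index_eq_one.mp h) hne
  · exact h

/-- The exceptions. -/
theorem exceptions {j : ℕ} (hj : 1 ≤ j) (hjn : j + 2 ≤ Fintype.card α) (hK : KT G α j)
    (hnot : ¬ KT G α (j + 1)) (h1 : Homog G α (j + 1)) (h2 : Homog G α (j + 2)) :
    (j + 2 = Fintype.card α ∧ G = alternatingGroup α) ∨
      (Fintype.card α = 5 ∧ j = 2 ∧ Nat.card G = 20) ∨
      (Fintype.card α = 6 ∧ j = 3 ∧ Nat.card G = 120) ∨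
      (Fintype.card α = 9 ∧ j = 3 ∧ (Nat.card G = 504 ∨ Nat.card G = 1512)) := by
  classical
  rcases (show j + 2 = Fintype.card α ∨ j + 3 ≤ Fintype.card α by omega) with he | hlt
  · exact Or.inl ⟨he, eq_alternating he hK hnot⟩
  right
  obtain ⟨w, L, s, hnw, hw2, hwdvd, hL, heq, htriv, hG⟩ := homog_data hj hlt hK h1 h2 hnot
  rcases (show 4 ≤ j ∨ j = 3 ∨ j = 2 ∨ j = 1 by omega) with h4 | rfl | rfl | rfl
  · exfalso
    rcases (show 2 * (j + 1) ≤ Fintype.card α ∨ Fintype.card α ≤ 2 * j + 1 by omega) with hbig | hsmall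
    · exact hnot (kt_full (by omega) hbig h1 (by simpa using hK))
    obtain ⟨Δ₀, hΔ₀, hgood₀⟩ := exists_good h4 (Fintype.card α) G rfl (by omega) hK
    -- the induced group contains the alternating group, so there are two orbits
    have hw : w = 2 := by
      have hr : Nat.card G = (Fintype.card α).choose (j + 1) * ((j + 1).factorial / w) := by
        refine Nat.eq_of_mul_eq_mul_left (show 0 < w by omega) ?_
        rw [hG, mul_left_comm w ((Fintype.card α).choose (j + 1)), Nat.mul_div_cancel' hwdvd,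
          mul_comm ((Fintype.card α).choose (j + 1)), ← Nat.descFactorial_eq_factorial_mul_choose,
          Nat.descFactorial_succ, hnw, Nat.add_sub_cancel_left]
        ring
      set X := stabilizer G (⟨Δ₀, hΔ₀⟩ : Set.powersetCard α (j + 1)) with hX
      have hXc := card_stabilizer_set h1 hΔ₀ hr
      have hle : Nat.card (alternatingGroup ↥Δ₀) ≤ Nat.card X := by
        choose f hf using fun σ : alternatingGroup ↥Δ₀ => alternating_le_of_good hgood₀ σ.2
        refine Nat.card_le_card_of_injective (fun σ => ⟨f σ, mem_stabilizer_set hΔ₀ fun z hz => by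
          rw [hf σ ⟨z, hz⟩]; exact (σ.1 ⟨z, hz⟩).2⟩) ?_
        intro σ τ hστ
        have h := congrArg Subtype.val hστ
        simp only at h
        refine Subtype.ext (Equiv.ext fun z => Subtype.ext ?_)
        rw [← hf σ z, ← hf τ z, h]
      replace hle := hle.trans_eq hXc
      haveI : Nontrivial ↥Δ₀ := Fintype.one_lt_card_iff_nontrivial.mp (by rw [Fintype.card_coe]; omega)
      have hA := two_mul_card_alternatingGroup (α := ↥Δ₀)
      rw [Fintype.card_perm, Fintype.card_coe, hΔ₀] at hA
      rw [Nat.card_eq_fintype_card] at hle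
      have h5 : w * ((j + 1).factorial / w) = (j + 1).factorial := Nat.mul_div_cancel' hwdvd
      have hpos : 0 < Fintype.card (alternatingGroup ↥Δ₀) := Fintype.card_pos
      by_contra hne
      have h6 : 3 * ((j + 1).factorial / w) ≤ w * ((j + 1).factorial / w) :=
        Nat.mul_le_mul_right _ (by omega)
      omega
    subst hw
    rcases (show L = 1 ∨ 2 ≤ L by omega) with rfl | hL2
    · omega
    obtain ⟨Φ, -, hΦ⟩ := Finset.exists_subset_card_eq (s := (Finset.univ : Finset α)) (n := j)
      (by rw [Finset.card_univ]; omega)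
    have hHc := card_eq_descFactorial_mul hK hΦ
    rw [hG] at hHc
    have hLc := Nat.eq_of_mul_eq_mul_left (Nat.descFactorial_pos.mpr (by omega)) hHc
    haveI : Nontrivial (fixingSubgroup G (Φ : Set α)) := Finite.one_lt_card_iff_nontrivial.mp (by omega)
    obtain ⟨⟨x, hxH⟩, hx1⟩ := exists_ne (1 : fixingSubgroup G (Φ : Set α))
    have hx1' : x ≠ 1 := fun e => hx1 (Subtype.ext e)
    refine no_small_support hnw (by omega) hL2 hK htriv hx1' (le_antisymm ?_ ?_)
    · by_contra hgt
      obtain ⟨Δ, hsub, hΔ⟩ := Finset.exists_subset_card_eq (s := (fix x : Finset α)) (n := j + 1) (by omega)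
      exact hx1' (eq_of_agree (htriv Δ hΔ) fun z hz => by rw [one_smul]; exact mem_fix.mp (hsub hz))
    · exact hΦ ▸ Finset.card_le_card fun z hz => mem_fix.mpr (mem_fixing.mp hxH z hz)
  · -- five-point homogeneity
    right
    have hmem := Nat.mem_divisors.mpr ⟨hwdvd, (Nat.factorial_pos (3 + 1)).ne'⟩
    rw [show Nat.factorial (3 + 1) = 24 by rfl,
      show Nat.divisors 24 = {1, 2, 3, 4, 6, 8, 12, 24} by rfl] at hmem
    simp only [Finset.mem_insert, Finset.mem_singleton] at hmem
    rw [show Nat.choose (3 + 2) 2 = 10 by rfl] at heq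
    have hs4 : s ≤ 4 := by
      by_contra hs
      have h3 : 5 * (w * L - 1) ≤ s * (w * L - 1) := Nat.mul_le_mul_right _ (by omega)
      have h4 : 2 * L ≤ w * L := Nat.mul_le_mul_right _ hw2
      omega
    have hcases : (w = 2 ∧ L = 3) ∨ (w = 3 ∧ L = 7) ∨ (w = 4 ∧ L = 4) ∨ (w = 3 ∧ L = 2) ∨
        (L = 1 ∧ 3 ≤ w) := by
      rcases (show w = 2 ∨ w = 3 ∨ w = 4 ∨ w = 6 ∨ w = 8 ∨ w = 12 ∨ w = 24 by omega) with
        rfl | rfl | rfl | rfl | rfl | rfl | rfl <;> interval_cases s <;> omega
    rcases hcases with ⟨rfl, rfl⟩ | ⟨rfl, rfl⟩ | ⟨rfl, rfl⟩ | ⟨rfl, rfl⟩ | ⟨rfl, hw3⟩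
    · exact Or.inr ⟨hnw, rfl, Or.inr (by rw [hG, show Fintype.card α = 9 from hnw]; rfl)⟩
    · exact (not_twentyfour htriv (by omega) hK (by rw [hG, show Fintype.card α = 24 by omega])).elim
    · exact (not_nineteen htriv (by omega) hK (by rw [hG, show Fintype.card α = 19 by omega])).elim
    · exfalso
      refine hnot (kt_of_ind (by omega) h1 fun T hT τ => ?_)
      induction τ using Perm.swap_induction_on with
      | one => exact one_mem _
      | swap_mul σ p q hpq ih =>
        refine mul_mem ?_ ih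
        have hc2 : ((T.erase (p : α)).erase q).card = 2 := by
          rw [Finset.card_erase_of_mem (Finset.mem_erase.mpr ⟨fun e => hpq (Subtype.ext e).symm, q.2⟩),
            Finset.card_erase_of_mem p.2, hT]
        obtain ⟨r, t, hrt, hTeq⟩ := Finset.card_eq_two.mp hc2
        have hr : r ∈ (T.erase (p : α)).erase q := hTeq ▸ Finset.mem_insert_self _ _
        have ht : t ∈ (T.erase (p : α)).erase q :=
          hTeq ▸ Finset.mem_insert_of_mem (Finset.mem_singleton_self _)
        simp only [Finset.mem_erase] at hr ht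
        obtain ⟨g, gr, gt, gp, gq⟩ := nine_transpositions htriv (by omega) hK
          (by rw [hG, show Fintype.card α = 9 by omega]; rfl) hrt hr.2.1 hr.1 ht.2.1 ht.1
          (fun e => hpq (Subtype.ext e))
        refine ⟨g, fun z => ?_⟩
        rw [← Subtype.val_injective.swap_apply]
        show g • (z : α) = Equiv.swap (p : α) q z
        by_cases z1 : (z : α) = p
        · rw [z1, Equiv.swap_apply_left, gp]
        by_cases z2 : (z : α) = q
        · rw [z2, Equiv.swap_apply_right, gq]
        rw [Equiv.swap_apply_of_ne_of_ne z1 z2]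
        have hz : (z : α) ∈ ({r, t} : Finset α) := by
          rw [← hTeq]; exact Finset.mem_erase.mpr ⟨z2, Finset.mem_erase.mpr ⟨z1, z.2⟩⟩
        simp only [Finset.mem_insert, Finset.mem_singleton] at hz
        rcases hz with e | e <;> rw [e] <;> assumption
    · have hdvd := choose_dvd_card h2 (by omega)
      rw [hG] at hdvd
      rcases (show w = 3 ∨ w = 4 ∨ w = 6 ∨ w = 8 ∨ w = 12 ∨ w = 24 by omega) with rfl | rfl | rfl | rfl | rfl | rfl
      · exact Or.inl ⟨hnw, rfl, by rw [hG, show Fintype.card α = 6 from hnw]; rfl⟩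
      · exact (not_seven htriv hnw hK h1 (by rw [hG, show Fintype.card α = 7 from hnw]; rfl)).elim
      · exact Or.inr ⟨hnw, rfl, Or.inl (by rw [hG, show Fintype.card α = 9 from hnw]; rfl)⟩
      all_goals
        exfalso
        rw [hnw] at hdvd
        norm_num [Nat.descFactorial, Nat.choose] at hdvd
  · have hmem := Nat.mem_divisors.mpr ⟨hwdvd, (Nat.factorial_pos (2 + 1)).ne'⟩
    rw [show Nat.factorial (2 + 1) = 6 by rfl, show Nat.divisors 6 = {1, 2, 3, 6} by rfl] at hmem
    simp only [Finset.mem_insert, Finset.mem_singleton] at hmem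
    rw [show Nat.choose (2 + 2) 2 = 6 by rfl] at heq
    have hs4 : s ≤ 2 := by
      by_contra hs
      have h3 : 3 * (w * L - 1) ≤ s * (w * L - 1) := Nat.mul_le_mul_right _ (by omega)
      have h4 : 2 * L ≤ w * L := Nat.mul_le_mul_right _ hw2
      omega
    have hcases : (w = 2 ∧ L = 2) ∨ (w = 3 ∧ L = 1) ∨ (w = 6 ∧ L = 1) := by
      rcases (show w = 2 ∨ w = 3 ∨ w = 6 by omega) with rfl | rfl | rfl <;> interval_cases s <;> omega
    rcases hcases with ⟨rfl, rfl⟩ | ⟨rfl, rfl⟩ | ⟨rfl, rfl⟩
    · exact (not_six hnw hK h1 (by rw [hG, show Fintype.card α = 6 from hnw]; rfl)).elim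
    · exact Or.inl ⟨hnw, rfl, by rw [hG, show Fintype.card α = 5 from hnw]; rfl⟩
    · exfalso
      have hdvd := choose_dvd_card h2 (by omega)
      rw [hG, hnw] at hdvd
      norm_num [Nat.descFactorial, Nat.choose] at hdvd
  · exfalso
    have hw : w = 2 := by
      have := Nat.le_of_dvd (Nat.factorial_pos (1 + 1)) hwdvd
      rw [show Nat.factorial (1 + 1) = 2 by rfl] at this
      omega
    subst hw
    rw [show Nat.choose (1 + 2) 2 = 3 by rfl] at heq
    have hs : s ≤ 1 := by
      by_contra hs
      have : 2 * (2 * L - 1) ≤ s * (2 * L - 1) := Nat.mul_le_mul_right _ (by omega)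
      omega
    obtain rfl : L = 2 := by interval_cases s <;> omega
    exact not_five hnw h1 (by rw [hG, show Fintype.card α = 5 from hnw]; rfl)

end CfsgLib.LW54
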