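import Cfsg.Agent.LW54.Main

/-!
The exceptional homogeneous groups which are not transitive enough.
-/

set_option autoImplicit false

namespace CfsgLib.LW54

open MulAction Equiv

variable {G α : Type*} [Group G] [MulAction G α] [Fintype α] [DecidableEq α] [Finite G]

theorem card_stabilizer_set {t r : ℕ} (h : Homog G α t) {Δ : Finset α} (hΔ : Δ.card = t)
    (hG : Nat.card G = (Fintype.card α).choose t * r) :
    Nat.card (stabilizer G (⟨Δ, hΔ⟩ : Set.powersetCard α t)) = r := by
  haveI := pretransitive_of_homog h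
  have h1 := (stabilizer G (⟨Δ, hΔ⟩ : Set.powersetCard α t)).card_mul_index
  rw [index_stabilizer_of_transitive, Set.powersetCard.card, Nat.card_eq_fintype_card (α := α), hG,
    mul_comm] at h1
  exact Nat.eq_of_mul_eq_mul_left (Nat.choose_pos (hΔ ▸ Finset.card_le_univ Δ)) h1

omit [Fintype α] [Finite G] in
theorem mem_stabilizer_set {t : ℕ} {Δ : Finset α} (hΔ : Δ.card = t) {g : G}
    (hg : ∀ x ∈ Δ, g • x ∈ Δ) : g ∈ stabilizer G (⟨Δ, hΔ⟩ : Set.powersetCard α t) := by
  refine mem_stabilizer_iff.mpr (Subtype.ext ?_)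
  rw [Set.powersetCard.coe_smul]
  refine Finset.eq_of_subset_of_card_le (fun y hy => ?_) ?_
  · obtain ⟨x, hx, rfl⟩ := Finset.mem_image.mp (show y ∈ Δ.image (g • ·) from hy)
    exact hg x hx
  · exact le_of_eq (Finset.card_image_of_injective Δ (MulAction.injective g)).symm

theorem false_of_invariant_set {t r : ℕ} (h : Homog G α t) {Δ : Finset α} (hΔ : Δ.card = t)
    (hG : Nat.card G = (Fintype.card α).choose t * r) (hr : ¬ 2 ∣ r) {z : G} (hz : orderOf z = 2)
    (hzΔ : ∀ x ∈ Δ, z • x ∈ Δ) : False :=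
  hr (card_stabilizer_set h hΔ hG ▸ hz ▸ Subgroup.orderOf_dvd_natCard _ (mem_stabilizer_set hΔ hzΔ))

omit [Fintype α] [Finite G] in
theorem orbit_closed_of_involution {z : G} (hz : orderOf z = 2) {B : Finset α}
    (hB : ∀ x ∈ B, z • x = x) (c : α) : ∀ x ∈ insert c (insert (z • c) B), z • x ∈ insert c (insert (z • c) B) := by
  intro x hx
  simp only [Finset.mem_insert] at hx ⊢
  rcases hx with rfl | rfl | hx
  · exact Or.inr (Or.inl rfl)
  · left
    rw [← mul_smul, ← pow_two, ← hz, pow_orderOf_eq_one, one_smul]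
  · exact Or.inr (Or.inr (by rw [hB x hx]; exact hx))

variable [FaithfulSMul G α]

theorem exists_moved {z : G} (hz : z ≠ 1) : ∃ x : α, z • x ≠ x := by
  refine Classical.byContradiction fun hall => hz ?_
  push_neg at hall
  exact FaithfulSMul.eq_of_smul_eq_smul (α := α) fun x => by rw [one_smul, hall x]

theorem not_five (hn : Fintype.card α = 5) (h : Homog G α 2) (hG : Nat.card G = 10) : False := by
  haveI : Fact (2).Prime := ⟨Nat.prime_two⟩
  obtain ⟨z, hz⟩ := exists_prime_orderOf_dvd_card' (G := G) 2 (by rw [hG]; norm_num)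
  obtain ⟨x, hx⟩ := exists_moved (α := α) (show z ≠ 1 from fun e => by rw [e, orderOf_one] at hz; omega)
  refine false_of_invariant_set (r := 1) h (Δ := insert x (insert (z • x) ∅)) ?_
    (by rw [hn, hG]; rfl) (by norm_num) hz (orbit_closed_of_involution hz (by simp) x)
  simp [Finset.card_pair (Ne.symm hx)]

theorem not_six (hn : Fintype.card α = 6) (hK : KT G α 2) (h : Homog G α 3)
    (hG : Nat.card G = 60) : False := by
  classical
  haveI : Fact (2).Prime := ⟨Nat.prime_two⟩
  obtain ⟨a, b, hab⟩ := Fintype.exists_pair_of_one_lt_card (show 1 < Fintype.card α by omega)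
  have hH : Nat.card (fixingSubgroup G (({a, b} : Finset α) : Set α)) = 2 := by
    have := card_eq_descFactorial_mul hK (Finset.card_pair hab)
    rw [hG, hn, show Nat.descFactorial 6 2 = 30 by rfl] at this
    omega
  obtain ⟨⟨z, hzH⟩, hz⟩ := exists_prime_orderOf_dvd_card'
    (G := fixingSubgroup G (({a, b} : Finset α) : Set α)) 2 (by rw [hH])
  rw [Subgroup.orderOf_mk] at hz
  obtain ⟨c, hc⟩ := exists_moved (α := α) (show z ≠ 1 from fun e => by rw [e, orderOf_one] at hz; omega)
  have za := mem_fixing.mp hzH a (by simp)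
  have hca : c ≠ a := fun e => hc (e ▸ za)
  refine false_of_invariant_set (r := 3) h (Δ := insert c (insert (z • c) {a})) ?_
    (by rw [hn, hG]; rfl) (by norm_num) hz
    (orbit_closed_of_involution hz (by intro x hx; rw [Finset.mem_singleton.mp hx, za]) c)
  rw [Finset.card_insert_of_notMem, Finset.card_insert_of_notMem, Finset.card_singleton]
  · rw [Finset.mem_singleton]; exact fun e => hca (MulAction.injective z (e.trans za.symm))
  · simp [hca, Ne.symm hc]

variable (h4 : ∀ Γ : Finset α, Γ.card = 4 → Nat.card (fixingSubgroup G (Γ : Set α)) = 1)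

include h4 in
omit [FaithfulSMul G α] in
theorem not_seven (hn : Fintype.card α = 7) (hK : KT G α 3) (h : Homog G α 4)
    (hG : Nat.card G = 210) : False := by
  classical
  haveI := Fintype.ofFinite G
  have h3 : ∀ Γ : Finset α, Γ.card = 3 → Nat.card (fixingSubgroup G (Γ : Set α)) = 1 := by
    intro Γ hΓ
    have := card_eq_descFactorial_mul hK hΓ
    rw [hG, hn, show Nat.descFactorial 7 3 = 210 by rfl] at this
    omega
  obtain ⟨S, -, hS⟩ := Finset.exists_subset_card_eq (s := (Finset.univ : Finset α)) (n := 4)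
    (by rw [Finset.card_univ]; omega)
  obtain ⟨a, b, d, e, hab, had, hae, hbd, hbe, hde, rfl⟩ := Finset.card_eq_four.mp hS
  -- every double transposition is induced
  have key : ∀ {a b d e : α}, a ≠ b → a ≠ d → a ≠ e → b ≠ d → b ≠ e → d ≠ e →
      ∃ g : G, g • a = b ∧ g • b = a ∧ g • d = e ∧ g • e = d := by
    intro a b d e hab had hae hbd hbe hde
    set I := Finset.univ.filter fun g : G => g • a = b ∧ g • b = a with hI
    set W := (Finset.univ.erase a).erase b with hW
    have hWc : W.card = 5 := by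
      rw [hW, Finset.card_erase_of_mem (by simp [hab.symm]), Finset.card_erase_of_mem (Finset.mem_univ a),
        Finset.card_univ, hn]
    have hmemW : ∀ {x}, x ∈ W ↔ x ≠ a ∧ x ≠ b := fun {x} => by simp [hW, and_comm]
    have ex : ∀ c ∈ W, ∃ g ∈ I, g • c = c := by
      intro c hc
      obtain ⟨g, hg⟩ := hK.perm (Γ := {a, b, c}) (Finset.card_le_three) (Equiv.swap a b)
      refine ⟨g, Finset.mem_filter.mpr ⟨Finset.mem_univ g, ?_, ?_⟩, ?_⟩
      · rw [hg a (by simp), Equiv.swap_apply_left]
      · rw [hg b (by simp), Equiv.swap_apply_right]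
      · rw [hg c (by simp), Equiv.swap_apply_of_ne_of_ne (hmemW.mp hc).1 (hmemW.mp hc).2]
    have inv2 : ∀ g ∈ I, ∀ c ∈ W, g • c = c → g * g = 1 := by
      intro g hg c hc hgc
      obtain ⟨-, ga, gb⟩ := Finset.mem_filter.mp hg
      refine eq_of_agree (h3 {a, b, c} (Finset.card_eq_three.mpr ⟨a, b, c, hab, Ne.symm (hmemW.mp hc).1,
        Ne.symm (hmemW.mp hc).2, rfl⟩)) fun x hx => ?_
      simp only [Finset.mem_insert, Finset.mem_singleton] at hx
      rw [mul_smul, one_smul]
      rcases hx with rfl | rfl | rfl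
      · rw [ga, gb]
      · rw [gb, ga]
      · rw [hgc, hgc]
    have one : ∀ g ∈ I, ∀ c ∈ W, ∀ c' ∈ W, g • c = c → g • c' = c' → c = c' := by
      intro g hg c hc c' hc' hgc hgc'
      by_contra hne
      obtain ⟨-, ga, gb⟩ := Finset.mem_filter.mp hg
      have g2 := inv2 g hg c hc hgc
      have hg1 : g ≠ 1 := fun e => hab (by rw [← ga, e, one_smul])
      have hp := fix_parity (α := α) g2
      have hle : (fix g : Finset α).card ≤ 2 := by
        by_contra hlt
        obtain ⟨Γ, hΓ, hΓc⟩ := Finset.exists_subset_card_eq (s := (fix g : Finset α)) (n := 3) (by omega)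
        exact hg1 (eq_of_agree (h3 Γ hΓc) fun x hx => by rw [one_smul]; exact mem_fix.mp (hΓ hx))
      have := Finset.card_le_card (show ({c, c'} : Finset α) ⊆ fix g by
        simp [Finset.insert_subset_iff, mem_fix, hgc, hgc'])
      rw [Finset.card_pair hne] at this
      omega
    choose g hgI hgc using ex
    -- the five involutions cover the twenty ordered pairs
    let f : (Σ c : ↥W, ↥(W.erase c)) → ↥W.offDiag := fun p => ⟨((p.2 : α), g p.1 p.1.2 • (p.2 : α)), by
      obtain ⟨-, ga, gb⟩ := Finset.mem_filter.mp (hgI p.1 p.1.2)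
      have g2 := inv2 _ (hgI p.1 p.1.2) _ p.1.2 (hgc p.1 p.1.2)
      have hy := Finset.mem_erase.mp p.2.2
      have hgy : g p.1 p.1.2 • (p.2 : α) ∈ W := hmemW.mpr
        ⟨fun h' => (hmemW.mp hy.2).2 (MulAction.injective (g p.1 p.1.2) (h'.trans gb.symm)),
          fun h' => (hmemW.mp hy.2).1 (MulAction.injective (g p.1 p.1.2) (h'.trans ga.symm))⟩
      exact Finset.mem_offDiag.mpr ⟨hy.2, hgy, fun h' =>
        hy.1 (one _ (hgI p.1 p.1.2) _ hy.2 _ p.1.2 h'.symm (hgc p.1 p.1.2))⟩⟩
    have hf : Function.Injective f := by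
      rintro ⟨c, y⟩ ⟨c', y'⟩ hcy
      simp only [f, Subtype.mk.injEq, Prod.mk.injEq] at hcy
      obtain ⟨e1, e2⟩ := hcy
      rw [← e1] at e2
      obtain ⟨-, ga, gb⟩ := Finset.mem_filter.mp (hgI c c.2)
      obtain ⟨-, ga', gb'⟩ := Finset.mem_filter.mp (hgI c' c'.2)
      have hy := Finset.mem_erase.mp y.2
      have heq : g c c.2 = g c' c'.2 := eq_of_agree (h3 {a, b, (y : α)} (Finset.card_eq_three.mpr
        ⟨a, b, _, hab, Ne.symm (hmemW.mp hy.2).1, Ne.symm (hmemW.mp hy.2).2, rfl⟩)) fun x hx => by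
          simp only [Finset.mem_insert, Finset.mem_singleton] at hx
          rcases hx with rfl | rfl | rfl
          · rw [ga, ga']
          · rw [gb, gb']
          · exact e2
      obtain rfl : c = c' := Subtype.ext (one _ (hgI c c.2) _ c.2 _ c'.2 (hgc c c.2) (heq ▸ hgc c' c'.2))
      exact Sigma.ext rfl (heq_of_eq (Subtype.ext e1))
    have hsur : Function.Surjective f := ((Fintype.bijective_iff_injective_and_card f).mpr ⟨hf, by
      rw [Fintype.card_sigma, Fintype.card_coe, Finset.offDiag_card,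
        Finset.sum_congr rfl fun (c : ↥W) _ => (show Fintype.card ↥(W.erase (c : α)) = 4 by
          rw [Fintype.card_coe, Finset.card_erase_of_mem c.2, hWc]), Finset.sum_const, Finset.card_univ,
        Fintype.card_coe, hWc]
      rfl⟩).2
    obtain ⟨⟨c, y⟩, hp⟩ := hsur ⟨(d, e), Finset.mem_offDiag.mpr
      ⟨hmemW.mpr ⟨had.symm, hbd.symm⟩, hmemW.mpr ⟨hae.symm, hbe.symm⟩, hde⟩⟩
    simp only [f, Subtype.mk.injEq, Prod.mk.injEq] at hp
    obtain ⟨-, ga, gb⟩ := Finset.mem_filter.mp (hgI c c.2)
    refine ⟨g c c.2, ga, gb, by rw [← hp.2, hp.1], ?_⟩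
    rw [← hp.2, hp.1, ← mul_smul, inv2 _ (hgI c c.2) _ c.2 (hgc c c.2), one_smul]
  obtain ⟨u, ua, ub, ud, ue⟩ := key hab had hae hbd hbe hde
  obtain ⟨v, va, vd, vb, ve⟩ := key had hab hae hbd.symm hde hbe
  set Q : Finset α := {a, b, d, e} with hQ
  have agr : ∀ {x y : G}, x • a = y • a → x • b = y • b → x • d = y • d → x • e = y • e → x = y := by
    intro x y h1 h2 h5 h6
    refine eq_of_agree (h4 Q hS) fun z hz => ?_
    simp only [hQ, Finset.mem_insert, Finset.mem_singleton] at hz
    rcases hz with rfl | rfl | rfl | rfl <;> assumption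
  have uu : u * u = 1 := agr (by rw [mul_smul, ua, ub, one_smul]) (by rw [mul_smul, ub, ua, one_smul])
    (by rw [mul_smul, ud, ue, one_smul]) (by rw [mul_smul, ue, ud, one_smul])
  have vv : v * v = 1 := agr (by rw [mul_smul, va, vd, one_smul]) (by rw [mul_smul, vb, ve, one_smul])
    (by rw [mul_smul, vd, va, one_smul]) (by rw [mul_smul, ve, vb, one_smul])
  have uv : u * v = v * u := agr (by rw [mul_smul, mul_smul, va, ud, ua, vb])
    (by rw [mul_smul, mul_smul, vb, ue, ub, va]) (by rw [mul_smul, mul_smul, vd, ua, ud, ve])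
    (by rw [mul_smul, mul_smul, ve, ub, ue, vd])
  let X : Subgroup G :=
    { carrier := {g | g = 1 ∨ g = u ∨ g = v ∨ g = u * v}
      one_mem' := Or.inl rfl
      mul_mem' := by
        have e1 : ∀ x : G, u * (u * x) = x := fun x => by rw [← mul_assoc, uu, one_mul]
        have e2 : ∀ x : G, v * (v * x) = x := fun x => by rw [← mul_assoc, vv, one_mul]
        have e3 : ∀ x : G, v * (u * x) = u * (v * x) := fun x => by rw [← mul_assoc, ← uv, mul_assoc]
        rintro x y (rfl | rfl | rfl | rfl) (rfl | rfl | rfl | rfl) <;>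
          simp [mul_assoc, uu, vv, uv.symm, e1, e2, e3]
      inv_mem' := by
        rintro x (rfl | rfl | rfl | rfl)
        · exact Or.inl inv_one
        · exact Or.inr (Or.inl (inv_eq_of_mul_eq_one_right uu))
        · exact Or.inr (Or.inr (Or.inl (inv_eq_of_mul_eq_one_right vv)))
        · exact Or.inr (Or.inr (Or.inr (by
            rw [mul_inv_rev, inv_eq_of_mul_eq_one_right uu, inv_eq_of_mul_eq_one_right vv, uv]))) }
  have hX : Nat.card X = 4 := by
    have himg : (X : Set G) = (({1, u, v, u * v} : Finset G) : Set G) := by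
      ext x; simp [X]
    rw [show Nat.card X = (X : Set G).ncard from rfl, himg, Set.ncard_coe_finset]
    refine Finset.card_eq_four.mpr ⟨1, u, v, u * v, ?_, ?_, ?_, ?_, ?_, ?_, rfl⟩ <;> intro h'
    · exact hab (by rw [← ua, ← h', one_smul])
    · exact had (by rw [← va, ← h', one_smul])
    · exact hae (by rw [← ud, ← va, ← mul_smul, ← h', one_smul])
    · exact hbd (by rw [← ua, h', va])
    · exact had (by rw [← va, ← mul_left_cancel ((mul_one u).trans h'), one_smul])
    · exact hab (by rw [← ua, ← mul_right_cancel ((one_mul v).trans h'), one_smul])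
  have hsub : X ≤ stabilizer G (⟨Q, hS⟩ : Set.powersetCard α 4) := by
    have memQ : ∀ {g : G}, g • a ∈ Q → g • b ∈ Q → g • d ∈ Q → g • e ∈ Q → ∀ x ∈ Q, g • x ∈ Q := by
      intro g h1 h2 h5 h6 x hx
      simp only [hQ, Finset.mem_insert, Finset.mem_singleton] at hx
      rcases hx with rfl | rfl | rfl | rfl <;> assumption
    have hu : u ∈ stabilizer G (⟨Q, hS⟩ : Set.powersetCard α 4) := mem_stabilizer_set hS
      (memQ (by simp [hQ, ua]) (by simp [hQ, ub]) (by simp [hQ, ud]) (by simp [hQ, ue]))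
    have hv : v ∈ stabilizer G (⟨Q, hS⟩ : Set.powersetCard α 4) := mem_stabilizer_set hS
      (memQ (by simp [hQ, va]) (by simp [hQ, vb]) (by simp [hQ, vd]) (by simp [hQ, ve]))
    rintro x (rfl | rfl | rfl | rfl)
    exacts [one_mem _, hu, hv, mul_mem hu hv]
  have := Subgroup.card_dvd_of_le hsub
  rw [hX, card_stabilizer_set (r := 6) h hS (by rw [hn, hG]; rfl)] at this
  norm_num at this

omit [FaithfulSMul G α] in
include h4 in
set_option maxHeartbeats 800000 in
theorem nine_transpositions (hn : Fintype.card α = 9) (hK : KT G α 3)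
    (hG : Nat.card G = 1008) {a b d e : α} (hab : a ≠ b) (had : a ≠ d) (hae : a ≠ e) (hbd : b ≠ d)
    (hbe : b ≠ e) (hde : d ≠ e) : ∃ g : G, g • a = a ∧ g • b = b ∧ g • d = e ∧ g • e = d := by
  classical
  haveI : Fact (2).Prime := ⟨Nat.prime_two⟩
  haveI := Fintype.ofFinite G
  have h3 : ∀ Γ : Finset α, Γ.card = 3 → Nat.card (fixingSubgroup G (Γ : Set α)) = 2 := by
    intro Γ hΓ
    have := card_eq_descFactorial_mul hK hΓ
    rw [hG, hn, show Nat.descFactorial 9 3 = 504 by rfl] at this
    omega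
  set I := Finset.univ.filter fun g : G => g * g = 1 ∧ (fix g : Finset α).card = 3 with hI
  have hmemI : ∀ {g}, g ∈ I ↔ g * g = 1 ∧ (fix g : Finset α).card = 3 := fun {g} => by simp [hI]
  have hfix3 : ∀ {Γ : Finset α}, Γ.card = 3 → ∀ {g : G}, g ∈ fixingSubgroup G (Γ : Set α) → g ≠ 1 →
      g ∈ I ∧ ∀ g' ∈ fixingSubgroup G (Γ : Set α), g' ≠ 1 → g' = g := by
    intro Γ hΓ g hg g1
    have uniq : ∀ g' ∈ fixingSubgroup G (Γ : Set α), g' ≠ 1 → g' = g := by
      intro g' hg' g1'
      obtain ⟨x, y, -, hall⟩ := Nat.card_eq_two_iff.mp (h3 Γ hΓ)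
      have hmem : ∀ t : fixingSubgroup G (Γ : Set α), t = x ∨ t = y := fun t => by
        have : t ∈ ({x, y} : Set _) := hall ▸ Set.mem_univ t
        simpa using this
      rcases hmem ⟨g, hg⟩ with e1 | e1 <;> rcases hmem ⟨g', hg'⟩ with e2 | e2 <;>
        rcases hmem 1 with e3 | e3 <;>
        first
          | exact congrArg Subtype.val (e2.trans e1.symm)
          | exact absurd (congrArg Subtype.val (e1.trans e3.symm)) g1
          | exact absurd (congrArg Subtype.val (e2.trans e3.symm)) g1'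
    refine ⟨hmemI.mpr ⟨?_, ?_⟩, uniq⟩
    · by_contra hne
      have h5 : g * g = g := uniq _ (mul_mem hg hg) hne
      exact g1 (mul_left_cancel (h5.trans (mul_one g).symm))
    · refine le_antisymm ?_ (hΓ ▸ Finset.card_le_card fun x hx => mem_fix.mpr (mem_fixing.mp hg x hx))
      by_contra hlt
      obtain ⟨Γ', hsub, hΓ'⟩ := Finset.exists_subset_card_eq (s := (fix g : Finset α)) (n := 4) (by omega)
      exact g1 (eq_of_agree (h4 Γ' hΓ') fun x hx => by rw [one_smul]; exact mem_fix.mp (hsub hx))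
  have hne1 : ∀ g ∈ I, g ≠ 1 := fun g hg h' => by
    have h5 := (hmemI.mp hg).2
    rw [h', show (fix (1 : G) : Finset α) = Finset.univ from
      Finset.eq_univ_of_forall fun x => mem_fix.mpr (one_smul _ x), Finset.card_univ, hn] at h5
    omega
  have hIcard : I.card = Nat.choose 9 3 := by
    rw [← hn, ← Finset.card_univ, ← Finset.card_powersetCard]
    refine Finset.card_bij (fun g _ => fix g) (fun g hg => Finset.mem_powersetCard.mpr
      ⟨Finset.subset_univ _, (hmemI.mp hg).2⟩) (fun g hg g' hg' heq => ?_) (fun Γ hΓ => ?_)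
    · refine ((hfix3 (hmemI.mp hg).2 (g := g) (mem_fixing.mpr fun x hx => mem_fix.mp hx) (hne1 g hg)).2 g'
        (mem_fixing.mpr fun x hx => mem_fix.mp ?_) (hne1 g' hg')).symm
      rwa [← heq]
    · have hΓc := (Finset.mem_powersetCard.mp hΓ).2
      obtain ⟨⟨v, hv⟩, ho⟩ := exists_prime_orderOf_dvd_card'
        (G := fixingSubgroup G (Γ : Set α)) 2 (by rw [h3 Γ hΓc])
      rw [Subgroup.orderOf_mk] at ho
      obtain ⟨hvI, -⟩ := hfix3 hΓc hv (fun h' => by rw [h', orderOf_one] at ho; omega)
      exact ⟨v, hvI, (Finset.eq_of_subset_of_card_le (fun x hx => mem_fix.mpr (mem_fixing.mp hv x hx))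
        (by rw [hΓc, (hmemI.mp hvI).2])).symm⟩
  have hmov : ∀ g ∈ I, ((Finset.univ : Finset α).filter fun x => g • x ≠ x).card = 6 := by
    intro g hg
    have h5 := Finset.card_filter_add_card_filter_not (s := (Finset.univ : Finset α)) (fun x => g • x = x)
    rw [Finset.card_univ, hn] at h5
    have h6 := (hmemI.mp hg).2
    rw [fix] at h6
    simp only [ne_eq]
    omega
  -- seven involutions interchange `d` and `e`
  set J := I.filter fun g => g • d = e with hJ
  have hconst : ∀ cd ∈ (Finset.univ : Finset α).offDiag, (I.filter fun g => g • cd.1 = cd.2).card = J.card := by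
    intro cd hcd
    have hne : cd.1 ≠ cd.2 := (Finset.mem_offDiag.mp hcd).2.2
    obtain ⟨g, hg⟩ := (hK.mono (by omega : 2 ≤ 3)) {d, e} (fun x => if x = d then cd.1 else cd.2)
      (by rw [Finset.card_pair hde]) (by
        intro x hx y hy hxy
        simp only [Finset.coe_insert, Finset.coe_singleton, Set.mem_insert_iff, Set.mem_singleton_iff] at hx hy
        rcases hx with rfl | rfl <;> rcases hy with rfl | rfl <;>
          simp_all [hde.symm, hne.symm])
    have ga : g • d = cd.1 := by rw [hg d (by simp)]; simp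
    have gb : g • e = cd.2 := by rw [hg e (by simp)]; simp [hde.symm]
    refine Finset.card_nbij' (fun x => g⁻¹ * x * g) (fun x => g * x * g⁻¹) ?_ ?_ ?_ ?_
    · intro x hx
      simp only [hJ, Finset.coe_filter, Set.mem_ofPred_eq] at hx ⊢
      obtain ⟨h5, h6⟩ := hmemI.mp hx.1
      refine ⟨hmemI.mpr ⟨?_, ?_⟩, ?_⟩
      · rw [show g⁻¹ * x * g * (g⁻¹ * x * g) = g⁻¹ * (x * x) * g by group, h5]; group
      · rw [← card_fix_conj (α := α) g (g⁻¹ * x * g), show g * (g⁻¹ * x * g) * g⁻¹ = x by group, h6]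
      · rw [mul_smul, mul_smul, ga, hx.2, ← gb, inv_smul_smul]
    · intro x hx
      simp only [hJ, Finset.coe_filter, Set.mem_ofPred_eq] at hx ⊢
      obtain ⟨h5, h6⟩ := hmemI.mp hx.1
      refine ⟨hmemI.mpr ⟨?_, by rw [card_fix_conj, h6]⟩, ?_⟩
      · rw [show g * x * g⁻¹ * (g * x * g⁻¹) = g * (x * x) * g⁻¹ by group, h5]; group
      · rw [mul_smul, mul_smul, ← ga, inv_smul_smul, hx.2, gb]
    · intro x _; group
    · intro x _; group
  have hW := fun (g : G) (_ : g ∈ I) (c : α) (_ : c ∈ (Finset.univ : Finset α)) => Finset.mem_univ (g • c)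
  have h1 := (count_moved (h := J.card) hW hmov).1 fun cd hcd => (hconst cd hcd).le
  have h2 := (count_moved (h := J.card) hW hmov).2 fun cd hcd => (hconst cd hcd).ge
  rw [hIcard, Finset.card_univ, hn, show Nat.choose 9 3 = 84 by rfl] at h1 h2
  have hJ7 : J.card = 7 := by omega
  -- their pairs of fixed points exhaust all pairs outside `d`, `e`
  set W := (Finset.univ.erase d).erase e with hWdef
  have hWc : W.card = 7 := by
    rw [hWdef, Finset.card_erase_of_mem (by simp [hde.symm]), Finset.card_erase_of_mem (Finset.mem_univ d),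
      Finset.card_univ, hn]
  have hJmem : ∀ g ∈ J, g * g = 1 ∧ (fix g : Finset α).card = 3 ∧ g • d = e ∧ g • e = d := by
    intro g hg
    obtain ⟨hgI, gd⟩ := Finset.mem_filter.mp hg
    obtain ⟨g2, gf⟩ := hmemI.mp hgI
    exact ⟨g2, gf, gd, by rw [← gd, ← mul_smul, g2, one_smul]⟩
  have hdisj : (J : Set G).PairwiseDisjoint fun g => (fix g : Finset α).powersetCard 2 := by
    intro g hg g' hg' hne
    refine Finset.disjoint_left.mpr fun P hP hP' => hne ?_
    obtain ⟨hPs, hPc⟩ := Finset.mem_powersetCard.mp hP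
    obtain ⟨x, y, hxy, rfl⟩ := Finset.card_eq_two.mp hPc
    have hPs' := (Finset.mem_powersetCard.mp hP').1
    obtain ⟨-, -, gd, ge⟩ := hJmem g hg
    obtain ⟨-, -, gd', ge'⟩ := hJmem g' hg'
    have gx := mem_fix.mp (hPs (Finset.mem_insert_self _ _))
    have gy := mem_fix.mp (hPs (Finset.mem_insert_of_mem (Finset.mem_singleton_self _)))
    have gx' := mem_fix.mp (hPs' (Finset.mem_insert_self _ _))
    have gy' := mem_fix.mp (hPs' (Finset.mem_insert_of_mem (Finset.mem_singleton_self _)))
    refine eq_of_agree (h4 {x, y, d, e} (Finset.card_eq_four.mpr ⟨x, y, d, e, hxy, ?_, ?_, ?_, ?_, hde, rfl⟩))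
      fun z hz => ?_
    · rintro rfl; exact hde (gx.symm.trans gd)
    · rintro rfl; exact hde (ge.symm.trans gx)
    · rintro rfl; exact hde (gy.symm.trans gd)
    · rintro rfl; exact hde (ge.symm.trans gy)
    · simp only [Finset.mem_insert, Finset.mem_singleton] at hz
      rcases hz with rfl | rfl | rfl | rfl
      exacts [gx.trans gx'.symm, gy.trans gy'.symm, gd.trans gd'.symm, ge.trans ge'.symm]
  have hunion : J.biUnion (fun g => (fix g : Finset α).powersetCard 2) = W.powersetCard 2 := by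
    refine Finset.eq_of_subset_of_card_le ?_ ?_
    · intro P hP
      obtain ⟨g, hg, hP⟩ := Finset.mem_biUnion.mp hP
      obtain ⟨hPs, hPc⟩ := Finset.mem_powersetCard.mp hP
      refine Finset.mem_powersetCard.mpr ⟨fun x hx => ?_, hPc⟩
      obtain ⟨-, -, gd, ge⟩ := hJmem g hg
      have gx := mem_fix.mp (hPs hx)
      simp only [hWdef, Finset.mem_erase, Finset.mem_univ, and_true]
      exact ⟨fun h' => hde ((h' ▸ gx : g • e = e).symm.trans ge).symm,
        fun h' => hde ((h' ▸ gx : g • d = d).symm.trans gd)⟩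
    · rw [Finset.card_biUnion hdisj, Finset.card_powersetCard, hWc,
        Finset.sum_congr rfl fun g hg => by rw [Finset.card_powersetCard, (hJmem g hg).2.1],
        Finset.sum_const, hJ7]
      rfl
  have hP : ({a, b} : Finset α) ∈ W.powersetCard 2 := Finset.mem_powersetCard.mpr
    ⟨by simp [hWdef, Finset.insert_subset_iff, had, hae, hbd, hbe], Finset.card_pair hab⟩
  rw [← hunion] at hP
  obtain ⟨g, hg, hP⟩ := Finset.mem_biUnion.mp hP
  obtain ⟨-, -, gd, ge⟩ := hJmem g hg
  have hPs := (Finset.mem_powersetCard.mp hP).1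
  exact ⟨g, mem_fix.mp (hPs (Finset.mem_insert_self _ _)),
    mem_fix.mp (hPs (Finset.mem_insert_of_mem (Finset.mem_singleton_self _))), gd, ge⟩

end CfsgLib.LW54
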