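import Cfsg.Agent.LW54.Induct

/-!
Homogeneous groups which are `j`-transitive but not `(j+1)`-transitive.
-/

set_option autoImplicit false

namespace CfsgLib.LW54

open MulAction
open scoped Pointwise

variable {G α : Type*} [Group G] [MulAction G α] [Fintype α] [DecidableEq α]

/-- Transitivity on the subsets of size `k`. -/
def Homog (G α : Type*) [Group G] [MulAction G α] [DecidableEq α] (k : ℕ) : Prop :=
  ∀ A B : Finset α, A.card = k → B.card = k → ∃ g : G, A.image (g • ·) = B

theorem homog_of_pretransitive {k : ℕ} (h : IsPretransitive G (Set.powersetCard α k)) : Homog G α k := by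
  intro A B hA hB
  obtain ⟨g, hg⟩ := h.exists_smul_eq (⟨A, hA⟩ : Set.powersetCard α k) ⟨B, hB⟩
  refine ⟨g, ?_⟩
  have := congrArg Subtype.val hg
  rwa [Set.powersetCard.coe_smul] at this

theorem pretransitive_of_homog {k : ℕ} (h : Homog G α k) :
    IsPretransitive G (Set.powersetCard α k) := by
  refine ⟨fun A B => ?_⟩
  obtain ⟨g, hg⟩ := h A.1 B.1 A.2 B.2
  exact ⟨g, Subtype.ext (by rw [Set.powersetCard.coe_smul]; exact hg)⟩

theorem Homog.card_fixing_eq {k : ℕ} (h : Homog G α k) {A B : Finset α} (hA : A.card = k)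
    (hB : B.card = k) :
    Nat.card (fixingSubgroup G (A : Set α)) = Nat.card (fixingSubgroup G (B : Set α)) := by
  obtain ⟨g, rfl⟩ := h A B hA hB
  exact (card_fixing_image g A).symm

/-- The orbit of `x` under a subgroup. -/
noncomputable def orb (H : Subgroup G) (x : α) : Finset α :=
  (Set.toFinite {y | ∃ g ∈ H, g • x = y}).toFinset

theorem mem_orb {H : Subgroup G} {x y : α} : y ∈ orb H x ↔ ∃ g ∈ H, g • x = y := by
  simp [orb]

theorem mem_orb_self (H : Subgroup G) (x : α) : x ∈ orb H x := mem_orb.mpr ⟨1, H.one_mem, one_smul _ _⟩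

theorem orb_eq {H : Subgroup G} {x y : α} (h : y ∈ orb H x) : orb H y = orb H x := by
  obtain ⟨g, hg, rfl⟩ := mem_orb.mp h
  ext z
  simp only [mem_orb]
  exact ⟨fun ⟨u, hu, e⟩ => ⟨u * g, H.mul_mem hu hg, by rw [mul_smul, e]⟩,
    fun ⟨u, hu, e⟩ => ⟨u * g⁻¹, H.mul_mem hu (H.inv_mem hg), by rw [mul_smul, inv_smul_smul, e]⟩⟩

theorem orb_eq_iff {H : Subgroup G} {x y : α} : orb H y = orb H x ↔ y ∈ orb H x :=
  ⟨fun h => h ▸ mem_orb_self H y, orb_eq⟩

theorem card_orb_mul [Finite G] (Φ : Finset α) (x : α) :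
    (orb (fixingSubgroup G (Φ : Set α)) x).card *
      Nat.card (fixingSubgroup G ((insert x Φ : Finset α) : Set α)) =
      Nat.card (fixingSubgroup G (Φ : Set α)) := by
  set H := fixingSubgroup G (Φ : Set α) with hH
  have h1 : Nat.card (stabilizer H x) = Nat.card (fixingSubgroup G ((insert x Φ : Finset α) : Set α)) := by
    refine Nat.card_congr
      { toFun := fun g => ⟨g.1.1, mem_fixing.mpr fun a ha => ?_⟩
        invFun := fun g => ⟨⟨g.1, mem_fixing.mpr fun a ha => ?_⟩, ?_⟩
        left_inv := fun g => rfl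
        right_inv := fun g => rfl }
    · rcases Finset.mem_insert.mp ha with rfl | ha
      · exact g.2
      · exact mem_fixing.mp g.1.2 a ha
    · exact mem_fixing.mp g.2 a (Finset.mem_insert_of_mem ha)
    · exact mem_fixing.mp g.2 x (Finset.mem_insert_self _ _)
  have h2 : (orb H x).card = Nat.card (orbit H x) := by
    rw [← Nat.card_eq_finsetCard]
    refine Nat.card_congr (Equiv.subtypeEquivRight fun y => ?_)
    rw [mem_orb]
    exact ⟨fun ⟨g, hg, e⟩ => ⟨⟨g, hg⟩, e⟩, fun ⟨g, e⟩ => ⟨g, g.2, e⟩⟩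
  rw [h2, ← h1, ← Nat.card_prod]
  exact Nat.card_congr (orbitProdStabilizerEquivGroup H x)

theorem card_of_orbits {H : Subgroup G} {S : Finset α} {r : ℕ}
    (hS : ∀ g ∈ H, ∀ x ∈ S, g • x ∈ S) (hr : ∀ x ∈ S, (orb H x).card = r) :
    S.card = (S.image (orb H)).card * r := by
  classical
  rw [Finset.card_eq_sum_card_image (orb H) S, ← smul_eq_mul, ← Finset.sum_const]
  refine Finset.sum_congr rfl fun O hO => ?_
  obtain ⟨x, hx, rfl⟩ := Finset.mem_image.mp hO
  rw [← hr x hx]
  congr 1
  ext y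
  simp only [Finset.mem_filter, orb_eq_iff]
  exact ⟨fun h => h.2, fun h => ⟨by obtain ⟨g, hg, rfl⟩ := mem_orb.mp h; exact hS g hg x hx, h⟩⟩

theorem card_eq_descFactorial_mul [Finite G] {j : ℕ} (hK : KT G α j) {Φ : Finset α} (hΦ : Φ.card = j) :
    Nat.card G = (Fintype.card α).descFactorial j * Nat.card (fixingSubgroup G (Φ : Set α)) := by
  have hjn : j ≤ Fintype.card α := hΦ ▸ Finset.card_le_univ Φ
  have h := (pretransitive_of_kt hK).index_of_fixingSubgroup_mul (s := (Φ : Set α))
    (by rw [Set.ncard_coe_finset, hΦ])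
  rw [Nat.card_eq_fintype_card, ← Nat.factorial_mul_descFactorial hjn, mul_comm _ ((Fintype.card α).descFactorial j)] at h
  rw [← (fixingSubgroup G (Φ : Set α)).card_mul_index, Nat.eq_of_mul_eq_mul_right (Nat.factorial_pos _) h,
    mul_comm]

theorem choose_dvd_card [Finite G] {k : ℕ} (h : Homog G α k) (hk : k ≤ Fintype.card α) :
    (Fintype.card α).choose k ∣ Nat.card G := by
  obtain ⟨T, -, hT⟩ := Finset.exists_subset_card_eq (s := (Finset.univ : Finset α)) (n := k)
    (by rwa [Finset.card_univ])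
  haveI := pretransitive_of_homog h
  rw [← (stabilizer G (⟨T, hT⟩ : Set.powersetCard α k)).card_mul_index,
    index_stabilizer_of_transitive, Set.powersetCard.card, Nat.card_eq_fintype_card (α := α)]
  exact dvd_mul_left _ _

variable [Finite G] [FaithfulSMul G α]

/-- The arithmetic of a homogeneous group that is not transitive enough. -/
theorem homog_data {j : ℕ} (hj : 1 ≤ j) (hn : j + 3 ≤ Fintype.card α) (hK : KT G α j)
    (h1 : Homog G α (j + 1)) (h2 : Homog G α (j + 2)) (hnot : ¬ KT G α (j + 1)) :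
    ∃ w L s : ℕ, Fintype.card α = j + w * L ∧ 2 ≤ w ∧ w ∣ (j + 1).factorial ∧ 1 ≤ L ∧
      s * (w * L - 1) = (j + 2).choose 2 * (L - 1) ∧
      (∀ Δ : Finset α, Δ.card = j + 1 → Nat.card (fixingSubgroup G (Δ : Set α)) = 1) ∧
      Nat.card G = (Fintype.card α).descFactorial j * L := by
  classical
  set n := Fintype.card α with hncard
  obtain ⟨Φ₀, -, hΦ₀⟩ := Finset.exists_subset_card_eq (s := (Finset.univ : Finset α)) (n := j)
    (by rw [Finset.card_univ]; omega)
  obtain ⟨Δ₀, -, hΔ₀⟩ := Finset.exists_subset_card_eq (s := (Finset.univ : Finset α)) (n := j + 1)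
    (by rw [Finset.card_univ]; omega)
  obtain ⟨T₀, -, hT₀⟩ := Finset.exists_subset_card_eq (s := (Finset.univ : Finset α)) (n := j + 2)
    (by rw [Finset.card_univ]; omega)
  set l := Nat.card (fixingSubgroup G (Φ₀ : Set α)) with hl
  set m := Nat.card (fixingSubgroup G (Δ₀ : Set α)) with hm
  set m' := Nat.card (fixingSubgroup G (T₀ : Set α)) with hm'
  have hmpos : 0 < m := Nat.card_pos
  have hm'pos : 0 < m' := Nat.card_pos
  have hlΦ : ∀ Φ : Finset α, Φ.card = j → Nat.card (fixingSubgroup G (Φ : Set α)) = l := fun Φ hΦ =>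
    hK.card_fixing_eq (hΦ.trans hΦ₀.symm) hΦ.le
  have horb : ∀ (Φ : Finset α), Φ.card = j → ∀ x ∉ Φ,
      (orb (fixingSubgroup G (Φ : Set α)) x).card * m = l := by
    intro Φ hΦ x hx
    have := card_orb_mul (G := G) Φ x
    rwa [hlΦ Φ hΦ, h1.card_fixing_eq (B := Δ₀) (by rw [Finset.card_insert_of_notMem hx, hΦ]) hΔ₀] at this
  set L := l / m with hL
  have horbL : ∀ (Φ : Finset α), Φ.card = j → ∀ x ∉ Φ,
      (orb (fixingSubgroup G (Φ : Set α)) x).card = L := fun Φ hΦ x hx => by
    rw [hL, ← horb Φ hΦ x hx, Nat.mul_div_cancel _ hmpos]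
  have hinv : ∀ (Φ : Finset α), ∀ g ∈ fixingSubgroup G (Φ : Set α), ∀ x, x ∉ Φ → g • x ∉ Φ := fun Φ g hg x hx h' =>
    hx (MulAction.injective g (mem_fixing.mp hg _ h') ▸ h')
  have hcompl : ∀ (Φ : Finset α), Φ.card = j →
      n - j = ((Φᶜ).image (orb (fixingSubgroup G (Φ : Set α)))).card * L := by
    intro Φ hΦ
    rw [← card_of_orbits (fun g hg x hx => Finset.mem_compl.mpr (hinv Φ g hg x (Finset.mem_compl.mp hx)))
      (fun x hx => horbL Φ hΦ x (Finset.mem_compl.mp hx)), Finset.card_compl, hΦ]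
  set w := ((Φ₀ᶜ).image (orb (fixingSubgroup G (Φ₀ : Set α)))).card with hw
  have hwL := hcompl Φ₀ hΦ₀
  rw [← hw] at hwL
  have hLpos : 1 ≤ L := by
    rcases Nat.eq_zero_or_pos L with h | h
    · rw [h, mul_zero] at hwL; omega
    · exact h
  have hw2 : 2 ≤ w := by
    by_contra hlt
    apply hnot
    refine kt_of_extend (by omega) fun Γ σ hΓ => ?_
    obtain ⟨a, ha⟩ := Finset.card_pos.mp (show 0 < Γ.card by omega)
    obtain ⟨g, hg⟩ := hK.perm (Γ := Γ.erase a) (by rw [Finset.card_erase_of_mem ha]; omega) σ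
    set Φ := (Γ.erase a).image σ with hΦdef
    have hΦ : Φ.card = j := by
      rw [hΦdef, Finset.card_image_of_injective _ σ.injective, Finset.card_erase_of_mem ha]; omega
    have hga : g • a ∉ Φ := by
      intro h'
      obtain ⟨b, hb, hbe⟩ := Finset.mem_image.mp h'
      rw [← hg b hb] at hbe
      exact Finset.notMem_erase a Γ (MulAction.injective g hbe ▸ hb)
    have hσa : σ a ∉ Φ := by
      intro h'
      obtain ⟨b, hb, hbe⟩ := Finset.mem_image.mp h'
      exact Finset.notMem_erase a Γ (σ.injective hbe ▸ hb)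
    have hone : ((Φᶜ).image (orb (fixingSubgroup G (Φ : Set α)))).card ≤ 1 := by
      have h3 := hcompl Φ hΦ
      have := Nat.eq_of_mul_eq_mul_right hLpos (h3.symm.trans hwL)
      omega
    have := Finset.card_le_one.mp hone _ (Finset.mem_image_of_mem _ (Finset.mem_compl.mpr hσa)) _
      (Finset.mem_image_of_mem _ (Finset.mem_compl.mpr hga))
    obtain ⟨u, hu, hue⟩ := mem_orb.mp (orb_eq_iff.mp this)
    refine ⟨u * g, fun b hb => ?_⟩
    by_cases hba : b = a
    · rw [hba, mul_smul, hue]
    · have hb' : b ∈ Γ.erase a := Finset.mem_erase.mpr ⟨hba, hb⟩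
      rw [mul_smul, hg b hb', mem_fixing.mp hu _ (Finset.mem_image_of_mem _ hb')]
  -- the stabilisers of `j + 1` points are trivial
  have hm1 : m = 1 := by
    obtain ⟨d, hd⟩ : ∃ d, d ∉ Φ₀ := by
      by_contra hall
      push_neg at hall
      have := Finset.card_le_card (show Finset.univ ⊆ Φ₀ from fun x _ => hall x)
      rw [Finset.card_univ] at this
      omega
    set H := fixingSubgroup G (Φ₀ : Set α) with hH
    obtain ⟨x, hx, hxd⟩ : ∃ x ∈ Φ₀ᶜ, x ∉ orb H d := by
      by_contra hall
      push_neg at hall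
      have h3 : ((Φ₀ᶜ).image (orb H)).card ≤ ({orb H d} : Finset (Finset α)).card :=
        Finset.card_le_card fun O hO => by
          obtain ⟨x, hx, rfl⟩ := Finset.mem_image.mp hO
          rw [Finset.mem_singleton, orb_eq (hall x hx)]
      rw [Finset.card_singleton] at h3
      omega
    have hxΦ := Finset.mem_compl.mp hx
    set Δ := insert d Φ₀ with hΔ
    have hΔc : Δ.card = j + 1 := by rw [hΔ, Finset.card_insert_of_notMem hd, hΦ₀]
    set K := fixingSubgroup G (Δ : Set α) with hK'
    have hKH : K ≤ H := fun g hg => mem_fixing.mpr fun a ha => mem_fixing.mp hg a (Finset.mem_insert_of_mem ha)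
    have hq : ∀ e ∉ Δ, (orb K e).card * m' = m := by
      intro e he
      have := card_orb_mul (G := G) Δ e
      rwa [h1.card_fixing_eq (B := Δ₀) hΔc hΔ₀,
        h2.card_fixing_eq (B := T₀) (by rw [Finset.card_insert_of_notMem he, hΔc]) hT₀] at this
    set q := m / m' with hqdef
    have hq' : ∀ e ∉ Δ, (orb K e).card = q := fun e he => by
      rw [hqdef, ← hq e he, Nat.mul_div_cancel _ hm'pos]
    have hsub : ∀ y ∈ orb H x, y ∉ Δ := by
      intro y hy h'
      rcases Finset.mem_insert.mp h' with rfl | h'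
      · exact hxd (orb_eq hy ▸ mem_orb_self H x)
      · obtain ⟨g, hg, rfl⟩ := mem_orb.mp hy
        exact hinv Φ₀ g hg x hxΦ h'
    have hclosed : ∀ z : α, ∀ g ∈ K, ∀ y ∈ orb H z, g • y ∈ orb H z := fun z g hg y hy => by
      obtain ⟨u, hu, rfl⟩ := mem_orb.mp hy
      exact mem_orb.mpr ⟨g * u, mul_mem (hKH hg) hu, mul_smul _ _ _⟩
    have e1 := card_of_orbits (S := orb H x) (hclosed x) (fun y hy => hq' y (hsub y hy))
    have e2 := card_of_orbits (H := K) (S := (orb H d).erase d) (r := q) (fun g hg y hy => by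
        rw [Finset.mem_erase] at hy ⊢
        refine ⟨fun e => hy.1 ?_, hclosed d g hg y hy.2⟩
        exact MulAction.injective g (e.trans (mem_fixing.mp hg d (Finset.mem_insert_self _ _)).symm))
      (fun y hy => hq' y fun h' => by
        rw [Finset.mem_erase] at hy
        rcases Finset.mem_insert.mp h' with h' | h'
        · exact hy.1 h'
        · obtain ⟨g, hg, rfl⟩ := mem_orb.mp hy.2
          exact hinv Φ₀ g hg d hd h')
    rw [Finset.card_erase_of_mem (mem_orb_self H d), horbL Φ₀ hΦ₀ d hd] at e2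
    rw [horbL Φ₀ hΦ₀ x hxΦ] at e1
    have hq1 : q = 1 := by
      refine Nat.dvd_one.mp ?_
      have : L - (L - 1) = 1 := by omega
      rw [← this]
      exact Nat.dvd_sub (Dvd.intro_left _ e1.symm) (Dvd.intro_left _ e2.symm)
    rw [hm, ← h1.card_fixing_eq hΔc hΔ₀, Subgroup.card_eq_one, eq_bot_iff]
    intro g hg
    rw [Subgroup.mem_bot]
    refine FaithfulSMul.eq_of_smul_eq_smul (α := α) fun y => ?_
    rw [one_smul]
    by_cases hy : y ∈ Δ
    · exact mem_fixing.mp hg y hy
    · have h4 := hq' y hy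
      rw [hq1] at h4
      exact Finset.card_le_one.mp h4.le _ (mem_orb.mpr ⟨g, hg, rfl⟩) _ (mem_orb_self K y)
  have hml : l = L := by rw [hL, hm1, Nat.div_one]
  have hm1' : ∀ Δ : Finset α, Δ.card = j + 1 → Nat.card (fixingSubgroup G (Δ : Set α)) = 1 := fun Δ hΔ =>
    (h1.card_fixing_eq hΔ hΔ₀).trans hm1
  have hG : Nat.card G = n.descFactorial j * L := by rw [card_eq_descFactorial_mul hK hΦ₀, ← hl, hml]
  -- the induced group on `j + 1` points
  have hwdvd : w ∣ (j + 1).factorial := by
    haveI := pretransitive_of_homog h1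
    set S := stabilizer G (⟨Δ₀, hΔ₀⟩ : Set.powersetCard α (j + 1)) with hS
    have hmap : ∀ g : S, ∀ x : ↥Δ₀, (g : G) • (x : α) ∈ Δ₀ := fun g x => by
      have h3 := congrArg Subtype.val (mem_stabilizer_iff.mp g.2)
      rw [Set.powersetCard.coe_smul] at h3
      exact h3.subst (motive := fun T => (g : G) • (x : α) ∈ T) (Finset.smul_mem_smul_finset x.2)
    let φ : S →* Equiv.Perm ↥Δ₀ :=
      { toFun := fun g =>
          { toFun := fun x => ⟨(g : G) • (x : α), hmap g x⟩
            invFun := fun x => ⟨((g⁻¹ : S) : G) • (x : α), hmap g⁻¹ x⟩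
            left_inv := fun x => Subtype.ext (inv_smul_smul (g : G) _)
            right_inv := fun x => Subtype.ext (smul_inv_smul (g : G) _) }
        map_one' := Equiv.ext fun x => Subtype.ext (one_smul G _)
        map_mul' := fun g g' => Equiv.ext fun x => Subtype.ext (mul_smul (g : G) g' _) }
    have hinj : Function.Injective φ := by
      intro g g' hgg
      exact Subtype.ext (eq_of_agree (hm1' Δ₀ hΔ₀) fun a ha =>
        congrArg Subtype.val (Equiv.ext_iff.mp hgg ⟨a, ha⟩))
    have hdvd : Nat.card S ∣ (j + 1).factorial := by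
      have h3 := Subgroup.card_dvd_of_injective φ hinj
      rwa [Nat.card_perm, Nat.card_eq_finsetCard, hΔ₀] at h3
    obtain ⟨t, ht⟩ := hdvd
    have hidx := S.card_mul_index
    rw [hS, index_stabilizer_of_transitive, Set.powersetCard.card, Nat.card_eq_fintype_card (α := α), ← hS, hG] at hidx
    -- cancel the descending factorial
    have e1 : n.descFactorial (j + 1) * Nat.card S = n.descFactorial j * L * (j + 1).factorial := by
      rw [Nat.descFactorial_eq_factorial_mul_choose, ← hidx]; ring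
    rw [Nat.descFactorial_succ, hwL, mul_comm (w * L), mul_assoc, mul_assoc, mul_assoc] at e1
    have e2 := Nat.eq_of_mul_eq_mul_left (n := n.descFactorial j)
      (Nat.descFactorial_pos.mpr (by omega)) e1
    have e3 : w * Nat.card S = (j + 1).factorial :=
      Nat.eq_of_mul_eq_mul_left hLpos (by rw [← e2]; ring)
    exact ⟨Nat.card S, e3.symm⟩
  -- pairs in one orbit
  let Same : Finset α → Finset α → Prop := fun Φ P =>
    ∀ x ∈ P, ∀ y ∈ P, y ∈ orb (fixingSubgroup G (Φ : Set α)) x
  let cnt : Finset α → Finset (Finset α) := fun T => (T.powersetCard 2).filter fun P => Same (T \ P) P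
  have hsame : ∀ (g : G) (Φ P : Finset α), Same Φ P → Same (Φ.image (g • ·)) (P.image (g • ·)) := by
    intro g Φ P h x hx y hy
    obtain ⟨x, hx', rfl⟩ := Finset.mem_image.mp hx
    obtain ⟨y, hy', rfl⟩ := Finset.mem_image.mp hy
    obtain ⟨u, hu, rfl⟩ := mem_orb.mp (h x hx' y hy')
    exact mem_orb.mpr ⟨g * u * g⁻¹, conj_mem_fixing hu, by rw [mul_smul, mul_smul, inv_smul_smul]⟩
  have hcnt_le : ∀ (g : G) (T : Finset α), (cnt T).card ≤ (cnt (T.image (g • ·))).card := by
    intro g T
    refine Finset.card_le_card_of_injOn (fun P => P.image (g • ·)) (fun P hP => ?_)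
      (fun P _ Q _ h => Finset.image_injective (MulAction.injective g) h)
    simp only [cnt, Finset.coe_filter, Set.mem_ofPred_eq, Finset.mem_powersetCard] at hP ⊢
    refine ⟨⟨Finset.image_subset_image hP.1.1,
      by rw [Finset.card_image_of_injective _ (MulAction.injective g)]; exact hP.1.2⟩, ?_⟩
    rw [← Finset.image_sdiff _ _ (MulAction.injective g)]
    exact hsame g _ _ hP.2
  set s := (cnt T₀).card with hs
  have hcnt : ∀ T : Finset α, T.card = j + 2 → (cnt T).card = s := by
    intro T hT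
    obtain ⟨g, hg⟩ := h2 T T₀ hT hT₀
    obtain ⟨g', hg'⟩ := h2 T₀ T hT₀ hT
    have u1 := hcnt_le g T
    have u2 := hcnt_le g' T₀
    rw [hg] at u1
    rw [hg'] at u2
    exact le_antisymm u1 u2
  let pr : Finset α → Finset (Finset α) := fun Φ => ((Φᶜ).powersetCard 2).filter fun P => Same Φ P
  have hpr : ∀ Φ : Finset α, Φ.card = j → 2 * (pr Φ).card = (n - j) * (L - 1) := by
    intro Φ hΦ
    set H := fixingSubgroup G (Φ : Set α) with hH
    set Opair := (Φᶜ).sigma fun x => (orb H x).erase x with hOpair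
    have hO : Opair.card = (n - j) * (L - 1) := by
      rw [hOpair, Finset.card_sigma, Finset.sum_congr rfl fun x hx => by
        rw [Finset.card_erase_of_mem (mem_orb_self H x), horbL Φ hΦ x (Finset.mem_compl.mp hx)],
        Finset.sum_const, smul_eq_mul, Finset.card_compl, hΦ]
    rw [← hO, Finset.card_eq_sum_card_fiberwise (f := fun xy : Σ _ : α, α => ({xy.1, xy.2} : Finset α))
      (t := pr Φ), mul_comm, ← smul_eq_mul, ← Finset.sum_const]
    · refine Finset.sum_congr rfl fun P hP => ?_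
      simp only [pr, Finset.mem_filter, Finset.mem_powersetCard] at hP
      obtain ⟨a, b, hab, rfl⟩ := Finset.card_eq_two.mp hP.1.2
      have ha : a ∈ Φᶜ := hP.1.1 (Finset.mem_insert_self _ _)
      have hb : b ∈ Φᶜ := hP.1.1 (Finset.mem_insert_of_mem (Finset.mem_singleton_self _))
      rw [show (Opair.filter fun xy : Σ _ : α, α => ({xy.1, xy.2} : Finset α) = {a, b}) =
        {⟨a, b⟩, ⟨b, a⟩} by
          ext ⟨x, y⟩
          simp only [hOpair, Finset.mem_filter, Finset.mem_sigma, Finset.mem_erase, Finset.mem_insert,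
            Finset.mem_singleton, Sigma.mk.injEq, heq_eq_eq]
          constructor
          · rintro ⟨⟨-, hne, -⟩, heq⟩
            have hx : x ∈ ({a, b} : Finset α) := heq ▸ Finset.mem_insert_self x _
            have hy : y ∈ ({a, b} : Finset α) := heq ▸ Finset.mem_insert_of_mem (Finset.mem_singleton_self y)
            simp only [Finset.mem_insert, Finset.mem_singleton] at hx hy
            rcases hx with rfl | rfl <;> rcases hy with rfl | rfl
            all_goals first | exact absurd rfl hne | exact Or.inl ⟨rfl, rfl⟩ | exact Or.inr ⟨rfl, rfl⟩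
          · rintro (⟨rfl, rfl⟩ | ⟨rfl, rfl⟩)
            · exact ⟨⟨ha, hab.symm, hP.2 x (by simp) y (by simp)⟩, rfl⟩
            · exact ⟨⟨hb, hab, hP.2 x (by simp) y (by simp)⟩, Finset.pair_comm _ _⟩]
      exact (Finset.card_pair fun h => hab (congrArg Sigma.fst h)).symm
    · intro xy hxy
      simp only [hOpair, Finset.mem_coe, Finset.mem_sigma, Finset.mem_erase] at hxy
      obtain ⟨hx, hne, hy⟩ := hxy
      simp only [pr, Finset.coe_filter, Set.mem_ofPred_eq, Finset.mem_powersetCard]
      have hy' : xy.2 ∈ Φᶜ := by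
        obtain ⟨g, hg, hgy⟩ := mem_orb.mp hy
        exact Finset.mem_compl.mpr (hgy ▸ hinv Φ g hg _ (Finset.mem_compl.mp hx))
      refine ⟨⟨by simp [Finset.insert_subset_iff, hx, hy'], Finset.card_pair (Ne.symm hne)⟩, ?_⟩
      intro x hxP y hyP
      simp only [Finset.mem_insert, Finset.mem_singleton] at hxP hyP
      rcases hxP with rfl | rfl <;> rcases hyP with rfl | rfl
      · exact mem_orb_self _ _
      · exact hy
      · rw [orb_eq hy]; exact mem_orb_self _ _
      · exact mem_orb_self _ _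
  have hdouble : ((Finset.univ : Finset α).powersetCard (j + 2)).card * s =
      ∑ Φ ∈ (Finset.univ : Finset α).powersetCard j, (pr Φ).card := by
    rw [← smul_eq_mul, ← Finset.sum_const, Finset.sum_congr rfl fun T hT =>
      (hcnt T (Finset.mem_powersetCard.mp hT).2).symm, ← Finset.card_sigma, ← Finset.card_sigma]
    refine Finset.card_nbij' (fun TP => ⟨TP.1 \ TP.2, TP.2⟩) (fun ΦP => ⟨ΦP.1 ∪ ΦP.2, ΦP.2⟩) ?_ ?_ ?_ ?_
    · intro TP h
      simp only [Finset.coe_sigma, Set.mem_sigma_iff, Finset.mem_coe, cnt, pr, Finset.mem_filter,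
        Finset.mem_powersetCard] at h ⊢
      refine ⟨⟨Finset.subset_univ _, by rw [Finset.card_sdiff_of_subset h.2.1.1, h.1.2, h.2.1.2]; omega⟩,
        ⟨fun x hx => ?_, h.2.1.2⟩, h.2.2⟩
      simp [hx]
    · intro ΦP h
      simp only [Finset.coe_sigma, Set.mem_sigma_iff, Finset.mem_coe, cnt, pr, Finset.mem_filter,
        Finset.mem_powersetCard] at h ⊢
      have hd : Disjoint ΦP.1 ΦP.2 := Finset.disjoint_right.mpr fun x hx => Finset.mem_compl.mp (h.2.1.1 hx)
      refine ⟨⟨Finset.subset_univ _, by rw [Finset.card_union_of_disjoint hd, h.1.2, h.2.1.2]⟩,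
        ⟨Finset.subset_union_right, h.2.1.2⟩, ?_⟩
      rw [Finset.union_sdiff_cancel_right hd]
      exact h.2.2
    · intro TP h
      simp only [Finset.coe_sigma, Set.mem_sigma_iff, Finset.mem_coe, cnt, Finset.mem_filter,
        Finset.mem_powersetCard] at h
      show (⟨TP.1 \ TP.2 ∪ TP.2, TP.2⟩ : Σ _ : Finset α, Finset α) = TP
      rw [Finset.sdiff_union_of_subset h.2.1.1]
    · intro ΦP h
      simp only [Finset.coe_sigma, Set.mem_sigma_iff, Finset.mem_coe, pr, Finset.mem_filter,
        Finset.mem_powersetCard] at h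
      have hd : Disjoint ΦP.1 ΦP.2 := Finset.disjoint_right.mpr fun x hx => Finset.mem_compl.mp (h.2.1.1 hx)
      show (⟨(ΦP.1 ∪ ΦP.2) \ ΦP.2, ΦP.2⟩ : Σ _ : Finset α, Finset α) = ΦP
      rw [Finset.union_sdiff_cancel_right hd]
  have e1 : 2 * (n.choose (j + 2) * s) = n.choose j * ((n - j) * (L - 1)) := by
    have := hdouble
    rw [Finset.card_powersetCard, Finset.card_univ] at this
    rw [← hncard] at this
    rw [this, Finset.mul_sum, Finset.sum_congr rfl fun Φ hΦ => hpr Φ (Finset.mem_powersetCard.mp hΦ).2,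
      Finset.sum_const, Finset.card_powersetCard, Finset.card_univ, smul_eq_mul, ← hncard]
  have hcm := Nat.choose_mul (n := n) (k := j + 2) (s := j) (by omega)
  rw [show j + 2 - j = 2 by omega, Nat.choose_symm_add] at hcm
  have e2 : (n - j) * (s * (n - j - 1)) = (n - j) * ((j + 2).choose 2 * (L - 1)) := by
    refine Nat.eq_of_mul_eq_mul_left (Nat.choose_pos (show j ≤ n by omega)) ?_
    calc n.choose j * ((n - j) * (s * (n - j - 1))) = n.choose j * (2 * (n - j).choose 2) * s := by
          rw [two_mul_choose_two]; ring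
      _ = (j + 2).choose 2 * (2 * (n.choose (j + 2) * s)) := by
          rw [show n.choose j * (2 * (n - j).choose 2) * s = 2 * (n.choose j * (n - j).choose 2) * s by ring,
            ← hcm]; ring
      _ = _ := by rw [e1]; ring
  have e3 := Nat.eq_of_mul_eq_mul_left (show 0 < n - j by omega) e2
  refine ⟨w, L, s, by omega, hw2, hwdvd, hLpos, ?_, hm1', hG⟩
  rwa [show n - j - 1 = w * L - 1 by omega] at e3

end CfsgLib.LW54
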