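import Cfsg.Agent.LW54.Seven
import Cfsg.Agent.S0743

/-!
In a `k`-transitive group some set of size `k + 1` induces all three-cycles.
-/

set_option autoImplicit false

namespace CfsgLib.LW54

open MulAction Equiv

variable {G α : Type*} [Group G] [MulAction G α] [Fintype α] [DecidableEq α]

/-- The permutations of `Δ` which are induced by the group. -/
def ind (G : Type*) {α : Type*} [Group G] [MulAction G α] (Δ : Finset α) : Subgroup (Perm ↥Δ) where
  carrier := {σ | ∃ g : G, ∀ x : ↥Δ, g • (x : α) = (σ x : α)}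
  one_mem' := ⟨1, fun x => one_smul G _⟩
  mul_mem' := by
    rintro σ τ ⟨g, hg⟩ ⟨g', hg'⟩
    exact ⟨g * g', fun x => by rw [mul_smul, hg', hg, Perm.mul_apply]⟩
  inv_mem' := by
    rintro σ ⟨g, hg⟩
    refine ⟨g⁻¹, fun x => ?_⟩
    rw [inv_smul_eq_iff, hg, Perm.inv_def, Equiv.apply_symm_apply]

theorem alternating_le_of_good {Δ : Finset α} (h : Good G Δ) : alternatingGroup ↥Δ ≤ ind G Δ := by
  rw [← Perm.closure_three_cycles_eq_alternating, Subgroup.closure_le]
  intro τ hτ
  have h3 : (Perm.ofSubtype τ).IsThreeCycle := by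
    rw [Perm.IsThreeCycle, Perm.cycleType_ofSubtype]
    exact hτ
  obtain ⟨g, hg⟩ := h (Perm.ofSubtype τ) (fun x hx => by
    by_contra hxΔ
    exact Perm.mem_support.mp hx (Perm.ofSubtype_apply_of_not_mem τ hxΔ)) h3
  exact ⟨g, fun x => by rw [hg x x.2, Perm.ofSubtype_apply_coe]⟩

theorem good_of_swaps {Δ : Finset α}
    (h : ∀ a ∈ Δ, ∀ b ∈ Δ, a ≠ b → ∃ g : G, Lift Δ (Equiv.swap a b) g) : Good G Δ := by
  have all : ∀ τ : Perm ↥Δ, τ ∈ ind G Δ := by
    intro τ
    induction τ using Perm.swap_induction_on with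
    | one => exact one_mem _
    | swap_mul τ x y hxy ih =>
      refine mul_mem ?_ ih
      obtain ⟨g, hg⟩ := h x x.2 y y.2 fun e => hxy (Subtype.ext e)
      refine ⟨g, fun z => ?_⟩
      rw [hg z z.2]
      exact (Subtype.val_injective.swap_apply x y z)
  intro σ hσ _
  have hmap : ∀ x, σ x ∈ Δ ↔ x ∈ Δ := by
    intro x
    by_cases hx : x ∈ σ.support
    · exact iff_of_true (hσ (Perm.apply_mem_support.mpr hx)) (hσ hx)
    · rw [Perm.notMem_support.mp hx]
  obtain ⟨g, hg⟩ := all (σ.subtypePerm hmap)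
  exact ⟨g, fun x hx => hg ⟨x, hx⟩⟩

theorem exists_good_semi [Finite G] {k : ℕ} (hk : 4 ≤ k) (hn : k < Fintype.card α) (hK : KT G α k)
    (hsemi : ∀ g : G, g ≠ 1 → (fix g : Finset α).card ≤ k) :
    ∃ Δ : Finset α, Δ.card = k + 1 ∧ Good G Δ := by
  classical
  obtain ⟨Γ₀, -, hΓ₀⟩ := Finset.exists_subset_card_eq (s := (Finset.univ : Finset α)) (n := k)
    (by rw [Finset.card_univ]; omega)
  set h := Nat.card (fixingSubgroup G (Γ₀ : Set α)) with hh0
  have hh : ∀ Γ : Finset α, Γ.card = k → Nat.card (fixingSubgroup G (Γ : Set α)) = h := fun Γ hΓ =>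
    hK.card_fixing_eq (hΓ.trans hΓ₀.symm) hΓ.le
  rcases bound_or_seven hk hn hK hsemi hh with h2 | ⟨h1, hn7, hdf⟩
  · obtain ⟨Δ, -, hΔ⟩ := Finset.exists_subset_card_eq (s := (Finset.univ : Finset α)) (n := k + 1)
      (by rw [Finset.card_univ]; omega)
    exact ⟨Δ, hΔ, good_of_two hk hK hsemi hh h2 hΔ⟩
  · obtain ⟨Δ, hΔ, hs⟩ := exists_good_seven hk hn7 hK hsemi (fun Γ hΓ => (hh Γ hΓ).trans h1) hdf
    exact ⟨Δ, hΔ, good_of_swaps hs⟩

theorem kt_of_extend {k : ℕ} (hk : k ≤ Fintype.card α)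
    (h : ∀ (Γ : Finset α) (σ : Perm α), Γ.card = k → ∃ g : G, ∀ a ∈ Γ, g • a = σ a) : KT G α k := by
  intro Γ f hΓ hf
  obtain ⟨σ, hσ⟩ := Perm.exists_extending_pair (fun x : ↥Γ => (x : α)) (fun x : ↥Γ => f x)
    Subtype.val_injective (fun x y hxy => Subtype.ext (hf x.2 y.2 hxy))
  obtain ⟨Γ₁, hsub, -, hΓ₁⟩ := Finset.exists_subsuperset_card_eq (Finset.subset_univ Γ) (n := k) hΓ
    (by rwa [Finset.card_univ])
  obtain ⟨g, hg⟩ := h Γ₁ σ hΓ₁
  exact ⟨g, fun a ha => by rw [hg a (hsub ha)]; exact hσ ⟨a, ha⟩⟩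

universe u

theorem exists_good {k : ℕ} (hk : 4 ≤ k) : ∀ (n : ℕ) {α : Type u} [Fintype α] [DecidableEq α]
    (G : Subgroup (Perm α)), Fintype.card α = n → k < n → KT G α k →
      ∃ Δ : Finset α, Δ.card = k + 1 ∧ Good G Δ := by
  intro n
  induction n using Nat.strong_induction_on with
  | _ n ih =>
  intro α _ _ G hn hkn hK
  classical
  by_cases hsemi : ∀ g : G, g ≠ 1 → (fix g : Finset α).card ≤ k
  · exact exists_good_semi hk (by omega) hK hsemi
  push_neg at hsemi
  obtain ⟨g₀, hg₀, hfix₀⟩ := hsemi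
  have hord : orderOf g₀ ≠ 1 := fun e => hg₀ (orderOf_eq_one_iff.mp e)
  obtain ⟨p, hp, hpd⟩ := Nat.exists_prime_and_dvd hord
  haveI := Fact.mk hp
  -- fixed points of a subgroup
  let FS : Subgroup G → Finset α := fun Q => Finset.univ.filter fun x => ∀ g ∈ Q, g • x = x
  have hmemFS : ∀ {Q x}, x ∈ FS Q ↔ ∀ g ∈ Q, g • x = x := fun {Q x} => by simp [FS]
  obtain ⟨Q, hQmax⟩ : ∃ Q, Maximal (fun Q : Subgroup G => IsPGroup p Q ∧ Q ≠ ⊥ ∧ k < (FS Q).card) Q := by
    set z := g₀ ^ (orderOf g₀ / p) with hz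
    have hzo : orderOf z = p := orderOf_pow_orderOf_div (orderOf_pos g₀).ne' hpd
    refine Set.Finite.exists_maximal (Set.toFinite
      {Q : Subgroup G | IsPGroup p Q ∧ Q ≠ ⊥ ∧ k < (FS Q).card}) ⟨Subgroup.zpowers z, ?_, ?_, ?_⟩
    · exact IsPGroup.of_card (n := 1) (by rw [Nat.card_zpowers, hzo, pow_one])
    · exact fun e => hp.one_lt.ne' (hzo ▸ orderOf_eq_one_iff.mpr (Subgroup.zpowers_eq_bot.mp e))
    · refine hfix₀.trans_le (Finset.card_le_card fun x hx => hmemFS.mpr fun g hg => ?_)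
      have : Subgroup.zpowers z ≤ stabilizer G x :=
        Subgroup.zpowers_le.mpr (pow_mem (mem_fix.mp hx : g₀ ∈ stabilizer G x) _)
      exact this hg
  obtain ⟨hQp, hQ1, hQF⟩ := hQmax.prop
  set F := FS Q with hF
  have hFlt : F.card < n := by
    rw [← hn]
    refine Finset.card_lt_univ_of_notMem (x := ?_) ?_
    · exact Classical.choose (show ∃ x, x ∉ F by
        by_contra hall
        push_neg at hall
        refine hQ1 ((Subgroup.eq_bot_iff_forall Q).mpr fun g hg => ?_)
        exact Subtype.ext (Equiv.ext fun x => hmemFS.mp (hall x) g hg))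
    · exact Classical.choose_spec (show ∃ x, x ∉ F by
        by_contra hall
        push_neg at hall
        refine hQ1 ((Subgroup.eq_bot_iff_forall Q).mpr fun g hg => ?_)
        exact Subtype.ext (Equiv.ext fun x => hmemFS.mp (hall x) g hg))
  set N := Subgroup.normalizer (Q : Set G) with hN
  have hNF : ∀ (g : N) (x : α), ((g : G) : Perm α) x ∈ F ↔ x ∈ F := by
    intro g x
    show (g : G) • x ∈ F ↔ x ∈ F
    rw [hmemFS, hmemFS]
    constructor
    · intro h y hy
      have h2 := h _ ((Subgroup.mem_normalizer_iff.mp g.2 y).mp hy)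
      rw [mul_smul, mul_smul, inv_smul_smul] at h2
      exact MulAction.injective (g : G) h2
    · intro h y hy
      have h1 : (g : G)⁻¹ * y * g ∈ Q := by
        have h3 := (Subgroup.mem_normalizer_iff.mp (inv_mem g.2) y).mp hy
        simpa using h3
      have h2 := h _ h1
      rwa [mul_smul, mul_smul, inv_smul_eq_iff] at h2
  let ρ : N →* Perm ↥F :=
    { toFun := fun g => ((g : G) : Perm α).subtypePerm (hNF g)
      map_one' := Equiv.ext fun x => rfl
      map_mul' := fun g g' => Equiv.ext fun x => rfl }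
  have hcF : Fintype.card ↥F = F.card := Fintype.card_coe F
  have hKF : KT ρ.range ↥F k := by
    obtain ⟨Γ₀, -, hΓ₀⟩ := Finset.exists_subset_card_eq (s := (Finset.univ : Finset α)) (n := k)
      (by rw [Finset.card_univ]; omega)
    set c := Nat.card (fixingSubgroup G (Γ₀ : Set α)) with hc
    have hcard : ∀ Γ : Finset α, Γ.card = k → Nat.card (fixingSubgroup G (Γ : Set α)) = c := fun Γ hΓ =>
      hK.card_fixing_eq (hΓ.trans hΓ₀.symm) hΓ.le
    have hQle : ∀ Γ : Finset α, Γ ⊆ F → Q ≤ fixingSubgroup G (Γ : Set α) := fun Γ hΓ g hg =>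
      mem_fixing.mpr fun a ha => hmemFS.mp (hΓ ha) g hg
    have hval : ∀ Γ : Finset ↥F, Γ.map (Function.Embedding.subtype _) ⊆ F := fun Γ a ha => by
      obtain ⟨b, -, rfl⟩ := Finset.mem_map.mp ha
      exact b.2
    by_cases hsyl : Nat.card Q = p ^ c.factorization p
    · -- Witt
      refine kt_of_extend (by omega) fun Γ σ hΓ => ?_
      set Γα := Γ.map (Function.Embedding.subtype _) with hΓα
      obtain ⟨g, hg⟩ := hK Γα (fun a => if ha : a ∈ F then (σ ⟨a, ha⟩ : α) else a)
        (by rw [hΓα, Finset.card_map, hΓ]) (fun a ha b hb hab => by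
          simp only [dif_pos (hval Γ ha), dif_pos (hval Γ hb)] at hab
          simpa using congrArg Subtype.val (σ.injective (Subtype.ext hab)))
      set Γ' := Γα.image (g • ·) with hΓ'
      have hΓ'F : Γ' ⊆ F := fun a ha => by
        obtain ⟨b, hb, rfl⟩ := Finset.mem_image.mp ha
        show g • b ∈ F
        rw [hg b hb, dif_pos (hval Γ hb)]
        exact (σ _).2
      have hΓ'c : Γ'.card = k := by
        rw [hΓ', Finset.card_image_of_injective _ (MulAction.injective g), hΓα, Finset.card_map, hΓ]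
      set H := fixingSubgroup G (Γ' : Set α) with hH
      have hQH : Q ≤ H := hQle Γ' hΓ'F
      set Q' := Q.map (MulAut.conj g).toMonoidHom with hQ'
      have hQ'H : Q' ≤ H := by
        rintro _ ⟨y, hy, rfl⟩
        exact conj_mem_fixing (hQle Γα (hval Γ) hy)
      have hQ'c : Nat.card Q' = Nat.card Q :=
        Nat.card_congr (Q.equivMapOfInjective _ (MulAut.conj g).injective).toEquiv.symm
      have hsub : ∀ R : Subgroup G, R ≤ H → Nat.card R = Nat.card Q →
          Nat.card (R.subgroupOf H) = p ^ (Nat.card H).factorization p := fun R hR hRc => by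
        rw [Nat.card_congr (Subgroup.subgroupOfEquivOfLe hR).toEquiv, hRc, hsyl, hcard Γ' hΓ'c]
      obtain ⟨x, hx⟩ := exists_smul_eq H (Sylow.ofCard (Q'.subgroupOf H) (hsub Q' hQ'H hQ'c))
        (Sylow.ofCard (Q.subgroupOf H) (hsub Q hQH rfl))
      have hxg : (x : G) * g ∈ N := by
        rw [hN, Subgroup.mem_normalizer_iff]
        intro y
        constructor
        · intro hy
          have h1 : (⟨g * y * g⁻¹, hQ'H ⟨y, hy, rfl⟩⟩ : H) ∈ Q'.subgroupOf H :=
            Subgroup.mem_subgroupOf.mpr ⟨y, hy, rfl⟩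
          have h2 : x * ⟨g * y * g⁻¹, hQ'H ⟨y, hy, rfl⟩⟩ * x⁻¹ ∈ (Sylow.ofCard (Q.subgroupOf H) (hsub Q hQH rfl) : Subgroup H) := by
            rw [← hx, Sylow.coe_subgroup_smul]
            exact Subgroup.smul_mem_pointwise_smul _ (MulAut.conj x) _ h1
          have h3 := Subgroup.mem_subgroupOf.mp h2
          simp only [Subgroup.coe_mul, Subgroup.coe_inv] at h3
          rwa [show (x : G) * g * y * ((x : G) * g)⁻¹ = x * (g * y * g⁻¹) * (x : G)⁻¹ by group]
        · intro hy
          have h2 : (⟨_, hQH hy⟩ : H) ∈ (Sylow.ofCard (Q.subgroupOf H) (hsub Q hQH rfl) : Subgroup H) :=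
            Subgroup.mem_subgroupOf.mpr hy
          rw [← hx, Sylow.coe_subgroup_smul, Subgroup.mem_pointwise_smul_iff_inv_smul_mem] at h2
          have h3 := Subgroup.mem_subgroupOf.mp h2
          obtain ⟨z, hz, hzeq⟩ := h3
          have e : z = y := by
            simp only [MulAut.smul_def, MulAut.inv_apply, MulAut.conj_symm_apply, MulEquiv.coe_toMonoidHom,
              MulAut.conj_apply, Subgroup.coe_mul, Subgroup.coe_inv] at hzeq
            calc z = g⁻¹ * (g * z * g⁻¹) * g := by group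
              _ = y := by rw [hzeq]; group
          rwa [← e]
      refine ⟨⟨ρ ⟨_, hxg⟩, ⟨_, rfl⟩⟩, fun a ha => Subtype.ext ?_⟩
      show ((x : G) * g) • (a : α) = _
      have haΓ : (a : α) ∈ Γα := Finset.mem_map_of_mem _ ha
      rw [mul_smul, mem_fixing.mp x.2 _ (Finset.mem_image_of_mem _ haΓ), hg _ haΓ, dif_pos a.2]
    · -- Gleason
      refine kt_of_pretransitive (Cfsg.Agent.S0743.result ρ.range hp (by omega) (by omega) fun s hs => ?_)
        (by omega)
      set Γ := s.map (Function.Embedding.subtype _) with hΓ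
      have hΓk : Γ.card = k := by rw [hΓ, Finset.card_map, hs]
      set H := fixingSubgroup G (Γ : Set α) with hH
      have hQH : Q ≤ H := hQle Γ (hval s)
      have hQp' : IsPGroup p (Q.subgroupOf H) := hQp.of_equiv (Subgroup.subgroupOfEquivOfLe hQH).symm
      obtain ⟨P, hQP⟩ := hQp'.exists_le_sylow
      have hne : (Q.subgroupOf H).subgroupOf (P : Subgroup H) ≠ ⊤ := fun e => hsyl (by
        rw [Subgroup.subgroupOf_eq_top] at e
        have := congrArg (fun R : Subgroup H => Nat.card R) (le_antisymm hQP e)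
        rwa [Nat.card_congr (Subgroup.subgroupOfEquivOfLe hQH).toEquiv, P.card_eq_multiplicity,
          hcard Γ hΓk] at this)
      haveI := P.isPGroup'.isNilpotent
      have hgrow := Group.normalizerCondition_of_isNilpotent (G := (P : Subgroup H)) _ hne.lt_top
      obtain ⟨y, hyN, hyQ⟩ := SetLike.exists_of_lt hgrow
      let P' : Subgroup G := ((P : Subgroup H).map H.subtype) ⊓ N
      have hPp : IsPGroup p P' := (P.isPGroup'.map H.subtype).to_le inf_le_left
      have hQP' : Q ≤ P' := le_inf (fun q hq => ⟨⟨q, hQH hq⟩, hQP (Subgroup.mem_subgroupOf.mpr hq), rfl⟩)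
        Subgroup.le_normalizer
      have hyP' : ((y : H) : G) ∈ P' := by
        refine ⟨⟨y.1, y.2, rfl⟩, ?_⟩
        show ((y : H) : G) ∈ Subgroup.normalizer (Q : Set G)
        rw [Subgroup.mem_normalizer_iff]
        intro z
        constructor
        · intro hz
          have h := (Subgroup.mem_normalizer_iff.mp hyN ⟨⟨z, hQH hz⟩, hQP (Subgroup.mem_subgroupOf.mpr hz)⟩).mp
            (Subgroup.mem_subgroupOf.mpr (Subgroup.mem_subgroupOf.mpr hz))
          simpa [Subgroup.mem_subgroupOf] using h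
        · intro hz
          have hzH : z ∈ H := by
            have := mul_mem (mul_mem (inv_mem (y : H).2) (hQH hz)) (y : H).2
            simpa [mul_assoc] using this
          have hzP : (⟨z, hzH⟩ : H) ∈ (P : Subgroup H) := by
            have := mul_mem (mul_mem (inv_mem y.2) (hQP (Subgroup.mem_subgroupOf.mpr hz) :
              (⟨_, hQH hz⟩ : H) ∈ (P : Subgroup H))) y.2
            convert this using 1
            exact Subtype.ext (by simp [mul_assoc])
          have h := (Subgroup.mem_normalizer_iff.mp hyN ⟨⟨z, hzH⟩, hzP⟩).mpr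
            (Subgroup.mem_subgroupOf.mpr (Subgroup.mem_subgroupOf.mpr (by simpa using hz)))
          simpa [Subgroup.mem_subgroupOf] using h
      have hyQ' : ((y : H) : G) ∉ Q := fun h => hyQ (Subgroup.mem_subgroupOf.mpr (Subgroup.mem_subgroupOf.mpr h))
      have hsmall : (FS P').card ≤ k := by
        by_contra hbig
        exact hyQ' (hQmax.le_of_ge ⟨hPp, fun e => hQ1 (eq_bot_iff.mpr (e ▸ hQP')), not_le.mp hbig⟩ hQP' hyP')
      have hΓFS : Γ ⊆ FS P' := fun a ha => hmemFS.mpr fun g hg => by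
        obtain ⟨⟨z, -, rfl⟩, -⟩ := hg
        exact mem_fixing.mp z.2 a ha
      have hFSΓ : FS P' = Γ := (Finset.eq_of_subset_of_card_le hΓFS (hΓk ▸ hsmall)).symm
      refine ⟨((P'.subgroupOf N).map ρ).subgroupOf ρ.range, ?_, ?_⟩
      · exact ((hPp.of_equiv (Subgroup.subgroupOfEquivOfLe inf_le_right).symm).map ρ).of_equiv
          (Subgroup.subgroupOfEquivOfLe (Subgroup.map_le_range ρ _)).symm
      · ext a
        have : a ∈ s ↔ (a : α) ∈ FS P' := by rw [hFSΓ, hΓ]; simp
        rw [Finset.mem_coe, this, hmemFS]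
        constructor
        · intro h g hg
          exact congrArg Subtype.val (h ⟨⟨ρ ⟨g, hg.2⟩, _, rfl⟩,
            Subgroup.mem_subgroupOf.mpr ⟨⟨g, hg.2⟩, hg, rfl⟩⟩)
        · rintro h ⟨⟨_, _⟩, hm⟩
          obtain ⟨z, hz, rfl⟩ := Subgroup.mem_subgroupOf.mp hm
          exact Subtype.ext (h z hz)
  obtain ⟨Δ, hΔ, hgood⟩ := ih F.card hFlt ρ.range hcF hQF hKF
  refine ⟨Δ.map (Function.Embedding.subtype _), by rw [Finset.card_map, hΔ], fun σ hσ h3 => ?_⟩
  have hmap : ∀ x, σ x ∈ F ↔ x ∈ F := by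
    intro x
    by_cases hx : x ∈ σ.support
    · have hsub : ∀ z ∈ σ.support, z ∈ F := fun z hz => by
        obtain ⟨b, -, rfl⟩ := Finset.mem_map.mp (hσ hz)
        exact b.2
      exact iff_of_true (hsub _ (Perm.apply_mem_support.mpr hx)) (hsub _ hx)
    · rw [Perm.notMem_support.mp hx]
  obtain ⟨⟨_, γ, rfl⟩, hg⟩ := hgood (σ.subtypePerm hmap) (fun x hx => by
      have hx' : (x : α) ∈ σ.support := Perm.mem_support.mpr fun e =>
        Perm.mem_support.mp hx (Subtype.ext e)
      obtain ⟨b, hb, hbx⟩ := Finset.mem_map.mp (hσ hx')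
      rwa [← Subtype.ext hbx]) (by
    rw [Perm.IsThreeCycle, ← Perm.cycleType_ofSubtype, Perm.ofSubtype_subtypePerm]
    · exact h3
    · intro x hx
      obtain ⟨b, -, rfl⟩ := Finset.mem_map.mp (hσ (Perm.mem_support.mpr hx))
      exact b.2)
  refine ⟨(γ : G), fun x hx => ?_⟩
  obtain ⟨b, hb, rfl⟩ := Finset.mem_map.mp hx
  exact congrArg Subtype.val (hg b hb)

end CfsgLib.LW54
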