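import Cfsg.Agent.LW54.Small
import Cfsg.Agent.ExtremelyClosed.FourFactor
import Cfsg.Agent.S0736

/-!
The theorem of Livingstone and Wagner.
-/

set_option autoImplicit false

namespace CfsgLib.LW54

open MulAction Equiv

section

variable {G α : Type*} [Group G] [MulAction G α] [Fintype α] [DecidableEq α]

/-- An involution in a coset of a fixing subgroup of odd order, inside the cyclic group of `g`. -/
theorem exists_involution_zpowers [Finite G] {Γ : Finset α}
    (hodd : Odd (Nat.card (fixingSubgroup G (Γ : Set α)))) {g : G}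
    (hg : ∀ a ∈ Γ, g • g • a = a) :
    ∃ u ∈ Subgroup.zpowers g, u * u = 1 ∧ ∀ a ∈ Γ, u • a = g • a := by
  have hgg : g * g ∈ fixingSubgroup G (Γ : Set α) :=
    mem_fixing.mpr fun a ha => by rw [mul_smul, hg a ha]
  obtain ⟨i, hi⟩ := hodd.of_dvd_nat (Subgroup.orderOf_dvd_natCard _ hgg)
  refine ⟨g * (g * g) ^ i,
    mul_mem (Subgroup.mem_zpowers g) (pow_mem (mul_mem (Subgroup.mem_zpowers g) (Subgroup.mem_zpowers g)) i),
    ?_, fun a ha => ?_⟩
  · have hc : Commute g ((g * g) ^ i) := ((Commute.refl g).mul_right (Commute.refl g)).pow_right i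
    rw [hc.symm.mul_mul_mul_comm g, ← pow_add, ← pow_succ', show i + i + 1 = orderOf (g * g) by omega,
      pow_orderOf_eq_one]
  · rw [mul_smul, mem_fixing.mp (pow_mem hgg i) a ha]

/-- Two involutions in one coset of an odd order subgroup are conjugate under it. -/
theorem exists_conj_involution [Finite G] (H : Subgroup G) (hodd : Odd (Nat.card H)) {u u' : G}
    (hu : u * u = 1) (hu' : u' * u' = 1) (hmem : u * u' ∈ H) :
    ∃ z ∈ H, z * u' * z⁻¹ = u := by
  set y := u * u' with hy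
  obtain ⟨i, hi⟩ := hodd.of_dvd_nat (Subgroup.orderOf_dvd_natCard _ hmem)
  have huy : SemiconjBy u y y⁻¹ := by
    show u * y = y⁻¹ * u
    rw [hy, mul_inv_rev, inv_eq_of_mul_eq_one_right hu, inv_eq_of_mul_eq_one_right hu', ← mul_assoc, hu,
      one_mul, mul_assoc, hu, mul_one]
  refine ⟨y ^ (i + 1), pow_mem hmem _, ?_⟩
  have h1 : u * y ^ (i + 1) = (y⁻¹) ^ (i + 1) * u := huy.pow_right (i + 1)
  have e : u' = u * y := by rw [hy, ← mul_assoc, hu, one_mul]
  have h3 : u * y⁻¹ ^ (i + 1) = y ^ (i + 1) * u := by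
    have h5 : SemiconjBy u y⁻¹ y := by simpa using huy.inv_right
    exact h5.pow_right (i + 1)
  calc y ^ (i + 1) * u' * (y ^ (i + 1))⁻¹ = y ^ (i + 1) * u * (y * (y ^ (i + 1))⁻¹) := by rw [e]; group
    _ = y ^ (i + 1) * u * y⁻¹ ^ i := by rw [inv_pow, pow_succ', mul_inv_rev]; group
    _ = u * y⁻¹ ^ (i + 1 + i) := by rw [← h3, mul_assoc, ← pow_add]
    _ = u := by
      rw [show i + 1 + i = orderOf y⁻¹ by rw [orderOf_inv]; omega, pow_orderOf_eq_one, mul_one]

end

universe u

variable {α : Type u} [Fintype α] [DecidableEq α] {G : Subgroup (Perm α)}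

theorem kt_one (h : Homog G α 1) : KT G α 1 := by
  intro Γ f hΓ _
  rcases Nat.le_one_iff_eq_zero_or_eq_one.mp hΓ with h0 | h1
  · exact ⟨1, fun a ha => absurd ha (by rw [Finset.card_eq_zero.mp h0]; exact Finset.notMem_empty a)⟩
  · obtain ⟨a, rfl⟩ := Finset.card_eq_one.mp h1
    obtain ⟨g, hg⟩ := h {a} {f a} (Finset.card_singleton _) (Finset.card_singleton _)
    refine ⟨g, fun b hb => ?_⟩
    rw [Finset.mem_singleton.mp hb]
    simpa using hg

/-- If every set of size `k` induces the full symmetric group, the group is `k`-transitive. -/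
theorem kt_of_ind {k : ℕ} (hk : k ≤ Fintype.card α) (h : Homog G α k)
    (hind : ∀ T : Finset α, T.card = k → ∀ τ : Perm ↥T, τ ∈ ind G T) : KT G α k := by
  classical
  refine kt_of_extend hk fun Γ σ hΓ => ?_
  obtain ⟨g, hg⟩ := h Γ (Γ.image σ) hΓ (by rw [Finset.card_image_of_injective _ σ.injective, hΓ])
  have hmap : ∀ x : α, σ ((g⁻¹ : G) • x) ∈ Γ.image σ ↔ x ∈ Γ.image σ := fun x => by
    conv_rhs => rw [← hg]
    simp only [Finset.mem_image]
    constructor
    · rintro ⟨a, ha, hax⟩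
      exact ⟨a, ha, by rw [σ.injective hax, smul_inv_smul]⟩
    · rintro ⟨a, ha, rfl⟩
      exact ⟨a, ha, by rw [inv_smul_smul]⟩
  let τ : Perm ↥(Γ.image σ) := Perm.subtypePerm ((MulAction.toPerm (g⁻¹ : G)).trans σ : Perm α) hmap
  obtain ⟨g', hg'⟩ := hind _ (by rw [Finset.card_image_of_injective _ σ.injective, hΓ]) τ
  refine ⟨g' * g, fun a ha => ?_⟩
  have hga : g • a ∈ Γ.image σ := hg ▸ Finset.mem_image_of_mem (g • ·) ha
  rw [mul_smul, hg' ⟨g • a, hga⟩]
  show σ ((g⁻¹ : G) • g • a) = σ a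
  rw [inv_smul_smul]

/-- The second form, given transitivity of degree `k - 1`. -/
theorem kt_full {k : ℕ} (hk : 5 ≤ k) (hn : 2 * k ≤ Fintype.card α) (h : Homog G α k)
    (hK : KT G α (k - 1)) : KT G α k := by
  classical
  obtain ⟨Δ₀, hΔ₀, hgood₀⟩ := exists_good (k := k - 1) (by omega) (Fintype.card α) G rfl (by omega) hK
  have hgood : ∀ T : Finset α, T.card = k → Good G T := by
    intro T hT σ hσ h3
    obtain ⟨g, hg⟩ := h Δ₀ T (by omega) hT
    have hsub : ((MulAction.toPerm g).symm.permCongr σ : Perm α).support ⊆ Δ₀ := by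
      intro x hx
      rw [Perm.mem_support, Equiv.permCongr_apply, Equiv.symm_symm, MulAction.toPerm_apply,
        MulAction.toPerm_symm_apply, Ne, inv_smul_eq_iff] at hx
      have hxT : g • x ∈ T := hσ (Perm.mem_support.mpr hx)
      rw [← hg] at hxT
      obtain ⟨y, hy, hyx⟩ := Finset.mem_image.mp hxT
      exact MulAction.injective g hyx ▸ hy
    have h3' : ((MulAction.toPerm g).symm.permCongr σ : Perm α).IsThreeCycle := by
      rw [Perm.IsThreeCycle, show (MulAction.toPerm g).symm.permCongr σ =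
        (MulAction.toPerm g)⁻¹ * σ * (MulAction.toPerm g)⁻¹⁻¹ by
          ext x; simp [Equiv.permCongr_apply, Perm.mul_apply], Perm.cycleType_conj]
      exact h3
    obtain ⟨q, hq⟩ := hgood₀ _ hsub h3'
    refine ⟨g * q * g⁻¹, fun x hx => ?_⟩
    obtain ⟨y, hy, rfl⟩ := Finset.mem_image.mp (hg.symm ▸ hx)
    rw [mul_smul, mul_smul, inv_smul_smul, hq y hy, Equiv.permCongr_apply, Equiv.symm_symm,
      MulAction.toPerm_apply, MulAction.toPerm_symm_apply, smul_inv_smul]
  have halt : ∀ T : Finset α, T.card = k → alternatingGroup ↥T ≤ ind G T := fun T hT =>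
    alternating_le_of_good (hgood T hT)
  -- either some odd permutation is induced, or none
  by_cases hodd : ∃ (T : Finset α) (_ : T.card = k) (τ : Perm ↥T), τ ∈ ind G T ∧ Perm.sign τ = -1
  · obtain ⟨T₁, hT₁, τ₁, hτ₁, hs₁⟩ := hodd
    refine kt_of_ind (by omega) h fun T hT => ?_
    obtain ⟨g, hg⟩ := h T₁ T hT₁ hT
    -- transport the odd permutation
    have hgT : ∀ x : ↥T₁, g • (x : α) ∈ T := fun x => by
      rw [← hg]; exact Finset.mem_image_of_mem (g • ·) x.2
    let e : ↥T₁ ≃ ↥T := Equiv.ofBijective (fun x => ⟨g • (x : α), hgT x⟩)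
      ⟨fun x y hxy => Subtype.ext (MulAction.injective g (congrArg Subtype.val hxy)), fun y => by
        have hy := y.2
        simp only [← hg, Finset.mem_image] at hy
        obtain ⟨x, hx, hxy⟩ := hy
        exact ⟨⟨x, hx⟩, Subtype.ext hxy⟩⟩
    have hτ' : e.permCongr τ₁ ∈ ind G T := by
      obtain ⟨q, hq⟩ := hτ₁
      refine ⟨g * q * g⁻¹, fun y => ?_⟩
      obtain ⟨x, rfl⟩ := e.surjective y
      rw [Equiv.permCongr_apply, Equiv.symm_apply_apply]
      show (g * q * g⁻¹) • (g • (x : α)) = g • ((τ₁ x : ↥T₁) : α)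
      rw [mul_smul, mul_smul, inv_smul_smul, hq]
    intro τ
    rcases Int.units_eq_one_or (Perm.sign τ) with h1 | h1
    · exact halt T hT (Perm.mem_alternatingGroup.mpr h1)
    · have : τ * (e.permCongr τ₁)⁻¹ ∈ ind G T := halt T hT (Perm.mem_alternatingGroup.mpr (by
        rw [map_mul, map_inv, Perm.sign_permCongr, hs₁, h1]; rfl))
      have := mul_mem this hτ'
      rwa [inv_mul_cancel_right] at this
  exfalso
  push_neg at hodd
  -- the stabiliser of `k - 2` points has odd order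
  have hfix : ∀ g : G, g * g = 1 → g ≠ 1 → (fix g : Finset α).card + 3 ≤ k := by
    intro g g2 g1
    by_contra hlt
    obtain ⟨Θ, hΘ, hΘc⟩ := Finset.exists_subset_card_eq (s := (fix g : Finset α)) (n := k - 2) (by omega)
    obtain ⟨x, hx⟩ : ∃ x : α, g • x ≠ x := by
      refine Classical.byContradiction fun hall => g1 ?_
      push_neg at hall
      exact Subtype.ext (Equiv.ext fun x => hall x)
    set T := insert x (insert (g • x) Θ) with hT
    have hxΘ : x ∉ Θ := fun h' => hx (mem_fix.mp (hΘ h'))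
    have hgxΘ : g • x ∉ Θ := fun h' => hx (MulAction.injective g (mem_fix.mp (hΘ h')))
    have hTc : T.card = k := by
      rw [hT, Finset.card_insert_of_notMem (by simp [Ne.symm hx, hxΘ]), Finset.card_insert_of_notMem hgxΘ,
        hΘc]
      omega
    have hsw : Equiv.swap (⟨x, by simp [hT]⟩ : ↥T) ⟨g • x, by simp [hT]⟩ ∈ ind G T := by
      refine ⟨g, fun y => ?_⟩
      rw [← Subtype.val_injective.swap_apply]
      show g • (y : α) = Equiv.swap x (g • x) y
      by_cases hy1 : (y : α) = x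
      · rw [hy1, Equiv.swap_apply_left]
      by_cases hy2 : (y : α) = g • x
      · rw [hy2, Equiv.swap_apply_right, ← mul_smul, g2, one_smul]
      rw [Equiv.swap_apply_of_ne_of_ne hy1 hy2]
      have := y.2
      simp only [hT, Finset.mem_insert, hy1, hy2, false_or] at this
      exact mem_fix.mp (hΘ this)
    exact hodd T hTc _ hsw (Perm.sign_swap (fun e => hx (congrArg Subtype.val e).symm))
  have hoddH : ∀ Γ : Finset α, k - 2 ≤ Γ.card → Odd (Nat.card (fixingSubgroup G (Γ : Set α))) := by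
    intro Γ hΓ
    rw [← Nat.not_even_iff_odd]
    intro he
    obtain ⟨⟨z, hzH⟩, hz⟩ := exists_prime_orderOf_dvd_card'
      (G := fixingSubgroup G (Γ : Set α)) 2 he.two_dvd
    rw [Subgroup.orderOf_mk] at hz
    have := hfix z (by rw [← pow_two, ← hz, pow_orderOf_eq_one])
      (fun e => by rw [e, orderOf_one] at hz; omega)
    have := Finset.card_le_card (show Γ ⊆ fix z from fun x hx => mem_fix.mpr (mem_fixing.mp hzH x hx))
    omega
  obtain ⟨Γ₄, -, hΓ₄⟩ := Finset.exists_subset_card_eq (s := (Finset.univ : Finset α)) (n := k - 1)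
    (by rw [Finset.card_univ]; omega)
  obtain ⟨Q, hQΓ, hQc⟩ := Finset.exists_subset_card_eq (s := Γ₄) (n := 4) (by omega)
  obtain ⟨a, b, c, d, hab, hac, had, hbc, hbd, hcd, rfl⟩ := Finset.card_eq_four.mp hQc
  simp only [Finset.insert_subset_iff, Finset.singleton_subset_iff] at hQΓ
  obtain ⟨ha, hb, hc, hd⟩ := hQΓ
  -- lifts on every extension
  have lift : ∀ e ∉ Γ₄, ∀ {p q r s : α}, p ∈ Γ₄ → q ∈ Γ₄ → r ∈ Γ₄ → s ∈ Γ₄ → p ≠ q → p ≠ r → p ≠ s →
      q ≠ r → q ≠ s → r ≠ s → ∃ g : G, g • e = e ∧ Dbl Γ₄ p q r s g := by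
    intro e he p q r s hp hq hr hs n1 n2 n3 n4 n5 n6
    set T := insert e Γ₄ with hT
    have hTc : T.card = k := by rw [hT, Finset.card_insert_of_notMem he, hΓ₄]; omega
    have mp : ∀ {x}, x ∈ Γ₄ → x ∈ T := fun hx => Finset.mem_insert_of_mem hx
    let τ : Perm ↥T := Equiv.swap ⟨p, mp hp⟩ ⟨q, mp hq⟩ * Equiv.swap ⟨r, mp hr⟩ ⟨s, mp hs⟩
    obtain ⟨g, hg⟩ := halt T hTc (show τ ∈ alternatingGroup ↥T by
      rw [Perm.mem_alternatingGroup, map_mul, Perm.sign_swap (fun h' => n1 (congrArg Subtype.val h')),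
        Perm.sign_swap (fun h' => n6 (congrArg Subtype.val h'))]; rfl)
    have val : ∀ x : ↥T, g • (x : α) = (Equiv.swap p q * Equiv.swap r s) (x : α) := fun x => by
      rw [hg, Perm.mul_apply, Perm.mul_apply, ← Subtype.val_injective.swap_apply]
      exact congrArg (Equiv.swap p q) (Subtype.val_injective.swap_apply _ _ _).symm
    have ne_e : ∀ {x}, x ∈ Γ₄ → e ≠ x := fun hx h' => he (h' ▸ hx)
    refine ⟨g, ?_, hp, hq, hr, hs, n1, n2, n3, n4, n5, n6, ?_, ?_, ?_, ?_, fun x hx x1 x2 x3 x4 => ?_⟩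
    · rw [val ⟨e, Finset.mem_insert_self _ _⟩]
      simp [Equiv.swap_apply_of_ne_of_ne, ne_e hp, ne_e hq, ne_e hr, ne_e hs]
    · rw [val ⟨p, mp hp⟩]; simp [Equiv.swap_apply_of_ne_of_ne, n2, n3]
    · rw [val ⟨q, mp hq⟩]; simp [Equiv.swap_apply_of_ne_of_ne, n4, n5]
    · rw [val ⟨r, mp hr⟩]; simp [Equiv.swap_apply_of_ne_of_ne, n3.symm, n5.symm]
    · rw [val ⟨s, mp hs⟩]; simp [Equiv.swap_apply_of_ne_of_ne, n2.symm, n4.symm]
    · rw [val ⟨x, mp hx⟩]; simp [Equiv.swap_apply_of_ne_of_ne, x1, x2, x3, x4]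
  set H := fixingSubgroup G (Γ₄ : Set α) with hH
  have hHodd : Odd (Nat.card H) := hoddH Γ₄ (by omega)
  -- `H` fixes every point
  have hHfix : ∀ e ∉ Γ₄, ∀ x ∈ H, x • e = e := by
    intro e he x hx
    set T := insert e Γ₄ with hT
    have hTodd : Odd (Nat.card (fixingSubgroup G (T : Set α))) :=
      hoddH T (by rw [hT, Finset.card_insert_of_notMem he, hΓ₄]; omega)
    have onT : ∀ {p q r s : α} {g : G}, g • e = e → Dbl Γ₄ p q r s g → (∀ y ∈ T, g • y ∈ T) ∧
        ∀ y ∈ T, g • g • y = y := by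
      intro p q r s g ge D
      refine ⟨fun y hy => ?_, fun y hy => ?_⟩
      · rcases Finset.mem_insert.mp hy with rfl | hy
        · rw [ge]; exact Finset.mem_insert_self _ _
        · exact Finset.mem_insert_of_mem (D.maps y hy)
      · rcases Finset.mem_insert.mp hy with rfl | hy
        · rw [ge, ge]
        by_cases y1 : y = p
        · rw [y1, D.va, D.vb]
        by_cases y2 : y = q
        · rw [y2, D.vb, D.va]
        by_cases y3 : y = r
        · rw [y3, D.vc, D.vd]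
        by_cases y4 : y = s
        · rw [y4, D.vd, D.vc]
        rw [D.rest y hy y1 y2 y3 y4, D.rest y hy y1 y2 y3 y4]
    obtain ⟨g₁, g₁e, D₁⟩ := lift e he ha hb hc hd hab hac had hbc hbd hcd
    obtain ⟨g₂, g₂e, D₂⟩ := lift e he ha hc hb hd hac hab had hbc.symm hcd hbd
    obtain ⟨u, -, u2, hu⟩ := exists_involution_zpowers hTodd (onT g₁e D₁).2
    have ue : u • e = e := by rw [hu e (Finset.mem_insert_self _ _), g₁e]
    have uy : ∀ y ∈ Γ₄, u • y = g₁ • y := fun y hy => hu y (Finset.mem_insert_of_mem hy)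
    have Du : Dbl Γ₄ a b c d u := ⟨ha, hb, hc, hd, hab, hac, had, hbc, hbd, hcd,
      by rw [uy a ha, D₁.va], by rw [uy b hb, D₁.vb], by rw [uy c hc, D₁.vc], by rw [uy d hd, D₁.vd],
      fun y hy y1 y2 y3 y4 => by rw [uy y hy, D₁.rest y hy y1 y2 y3 y4]⟩
    -- move the second lift into the centraliser of `u`
    have hconj : ∀ y ∈ T, (g₂ * u * g₂⁻¹) • y = u • y := by
      intro y hy
      rw [mul_smul, mul_smul]
      have hinv : g₂⁻¹ • y = g₂ • y := inv_smul_eq_iff.mpr ((onT g₂e D₂).2 y hy).symm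
      rw [hinv]
      rcases Finset.mem_insert.mp hy with rfl | hy
      · rw [g₂e, ue, g₂e]
      by_cases y1 : y = a
      · rw [y1, D₂.va, Du.vc, D₂.vd, Du.va]
      by_cases y2 : y = b
      · rw [y2, D₂.vc, Du.vd, D₂.vb, Du.vb]
      by_cases y3 : y = c
      · rw [y3, D₂.vb, Du.va, D₂.vc, Du.vc]
      by_cases y4 : y = d
      · rw [y4, D₂.vd, Du.vb, D₂.va, Du.vd]
      rw [D₂.rest y hy y1 y3 y2 y4, Du.rest y hy y1 y2 y3 y4, D₂.rest y hy y1 y3 y2 y4]
    obtain ⟨z, hz, hzc⟩ := exists_conj_involution (fixingSubgroup G (T : Set α)) hTodd u2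
      (u' := g₂ * u * g₂⁻¹)
      (by rw [show g₂ * u * g₂⁻¹ * (g₂ * u * g₂⁻¹) = g₂ * (u * u) * g₂⁻¹ by group, u2]; group)
      (mem_fixing.mpr fun y hy => by
        rw [mul_smul, hconj y hy, ← mul_smul, u2, one_smul])
    have hcomm : Commute (z * g₂) u := by
      show z * g₂ * u = u * (z * g₂)
      calc z * g₂ * u = z * (g₂ * u * g₂⁻¹) * z⁻¹ * (z * g₂) := by group
        _ = u * (z * g₂) := by rw [hzc]
    have zg : ∀ y ∈ T, (z * g₂) • y = g₂ • y := fun y hy => by
      rw [mul_smul, mem_fixing.mp hz _ ((onT g₂e D₂).1 y hy)]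
    obtain ⟨v, hvz, v2, hv⟩ := exists_involution_zpowers hTodd (g := z * g₂) (fun y hy => by
      rw [zg y hy, zg _ ((onT g₂e D₂).1 y hy), (onT g₂e D₂).2 y hy])
    have huv : Commute u v := by
      obtain ⟨i, rfl⟩ := Subgroup.mem_zpowers_iff.mp hvz
      exact (hcomm.zpow_left i).symm
    have ve : v • e = e := by rw [hv e (Finset.mem_insert_self _ _), zg e (Finset.mem_insert_self _ _), g₂e]
    have vy : ∀ y ∈ Γ₄, v • y = g₂ • y := fun y hy => by
      rw [hv y (Finset.mem_insert_of_mem hy), zg y (Finset.mem_insert_of_mem hy)]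
    have Dv : Dbl Γ₄ a c b d v := ⟨ha, hc, hb, hd, hac, hab, had, hbc.symm, hcd, hbd,
      by rw [vy a ha, D₂.va], by rw [vy c hc, D₂.vb], by rw [vy b hb, D₂.vc], by rw [vy d hd, D₂.vd],
      fun y hy y1 y2 y3 y4 => by rw [vy y hy, D₂.rest y hy y1 y2 y3 y4]⟩
    have Dw : Dbl Γ₄ a d b c (u * v) := by
      refine ⟨ha, hd, hb, hc, had, hab, hac, hbd.symm, hcd.symm, hbc, ?_, ?_, ?_, ?_, fun y hy y1 y2 y3 y4 => ?_⟩
      · rw [mul_smul, Dv.va, Du.vc]
      · rw [mul_smul, Dv.vd, Du.vb]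
      · rw [mul_smul, Dv.vc, Du.vd]
      · rw [mul_smul, Dv.vb, Du.va]
      · rw [mul_smul, Dv.rest y hy y1 y4 y3 y2, Du.rest y hy y1 y3 y4 y2]
    -- each centraliser fixes `e`
    have key : ∀ {p q r s : α} {w : G}, Dbl Γ₄ p q r s w → w * w = 1 → w • e = e → ∀ y ∈ H, Commute w y →
        y • e = e := by
      intro p q r s w D w2 we y hy hcw
      have hw1 : w ≠ 1 := fun h' => D.nab (by rw [← D.va, h', one_smul])
      have hb' := hfix w w2 hw1
      have hcard := D.card_fix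
      rw [hΓ₄] at hcard
      have hout : ∀ t : α, t ∈ fix w \ Γ₄ → y • t ∈ fix w \ Γ₄ := fun t ht => by
        rw [Finset.mem_sdiff] at ht ⊢
        exact ⟨smul_mem_fix_of_commute hcw ht.1, fun h' =>
          ht.2 (MulAction.injective y (mem_fixing.mp hy _ h') ▸ h')⟩
      have e0 : e ∈ fix w \ Γ₄ := Finset.mem_sdiff.mpr ⟨mem_fix.mpr we, he⟩
      by_contra hye
      have hsub : ({e, y • e} : Finset α) ⊆ fix w \ Γ₄ := by
        rw [Finset.insert_subset_iff, Finset.singleton_subset_iff]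
        exact ⟨e0, hout e e0⟩
      have heq := Finset.eq_of_subset_of_card_le hsub (by rw [Finset.card_pair (Ne.symm hye)]; omega)
      have hyy : (y * y) • e = e := by
        have h5 := hout _ (hout e e0)
        rw [← heq, Finset.mem_insert, Finset.mem_singleton] at h5
        rw [mul_smul]
        exact h5.resolve_right fun h' => hye (MulAction.injective y h')
      obtain ⟨i, hi⟩ := hHodd.of_dvd_nat (Subgroup.orderOf_dvd_natCard H hy)
      apply hye
      have h6 : (y * y) ^ (i + 1) = y := by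
        rw [← pow_two, ← pow_mul, show 2 * (i + 1) = orderOf y + 1 by omega, pow_succ, pow_orderOf_eq_one,
          one_mul]
      have h7 : (y * y) ^ (i + 1) ∈ stabilizer G e :=
        pow_mem (show y * y ∈ stabilizer G e from hyy) _
      rw [h6] at h7
      exact h7
    have nu : ∀ {p q r s : α} {w : G}, Dbl Γ₄ p q r s w → w * w = 1 → ∀ y ∈ H, w * y * w⁻¹ ∈ H := by
      intro p q r s w D w2 y hy
      refine mem_fixing.mpr fun t ht => ?_
      rw [inv_eq_of_mul_eq_one_right w2, mul_smul, mul_smul, mem_fixing.mp hy _ (D.maps t ht), ← mul_smul,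
        w2, one_smul]
    obtain ⟨x₁, hx₁, c₁, x₂, hx₂, c₂, x₃, hx₃, c₃, rfl⟩ :=
      CfsgLib.ExtremelyClosed.exists_three_factor hHodd huv u2 v2 (nu Du u2) (nu Dv v2) hx
    have w2 : u * v * (u * v) = 1 := by rw [huv.symm.mul_mul_mul_comm u, u2, v2, mul_one]
    rw [mul_smul, mul_smul, key Dw w2 (by rw [mul_smul, ve, ue]) _ hx₃ c₃, key Dv v2 ve _ hx₂ c₂,
      key Du u2 ue _ hx₁ c₁]
  -- the lift fixes everything outside
  obtain ⟨e₀, he₀⟩ : ∃ e, e ∉ Γ₄ := by
    refine Classical.byContradiction fun hall => ?_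
    push_neg at hall
    have := Finset.card_le_card (show Finset.univ ⊆ Γ₄ from fun x _ => hall x)
    rw [Finset.card_univ] at this
    omega
  obtain ⟨g₀, -, D₀⟩ := lift e₀ he₀ ha hb hc hd hab hac had hbc hbd hcd
  have heq : ∀ e ∉ Γ₄, g₀ • e = e := by
    intro e he
    obtain ⟨g, ge, D⟩ := lift e he ha hb hc hd hab hac had hbc hbd hcd
    have hm : g₀⁻¹ * g ∈ H := mem_fixing.mpr fun y hy => by
      rw [mul_smul, inv_smul_eq_iff]
      by_cases y1 : y = a
      · rw [y1, D.va, D₀.va]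
      by_cases y2 : y = b
      · rw [y2, D.vb, D₀.vb]
      by_cases y3 : y = c
      · rw [y3, D.vc, D₀.vc]
      by_cases y4 : y = d
      · rw [y4, D.vd, D₀.vd]
      rw [D.rest y hy y1 y2 y3 y4, D₀.rest y hy y1 y2 y3 y4]
    have h8 := hHfix e he _ hm
    rw [mul_smul, ge, inv_smul_eq_iff] at h8
    exact h8.symm
  have g1 : g₀ ≠ 1 := fun h' => hab (by rw [← D₀.va, h', one_smul])
  have g2 : g₀ * g₀ = 1 := by
    refine Subtype.ext (Equiv.ext fun y => ?_)
    show g₀ • g₀ • y = y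
    by_cases hy : y ∈ Γ₄
    · by_cases y1 : y = a
      · rw [y1, D₀.va, D₀.vb]
      by_cases y2 : y = b
      · rw [y2, D₀.vb, D₀.va]
      by_cases y3 : y = c
      · rw [y3, D₀.vc, D₀.vd]
      by_cases y4 : y = d
      · rw [y4, D₀.vd, D₀.vc]
      rw [D₀.rest y hy y1 y2 y3 y4, D₀.rest y hy y1 y2 y3 y4]
    · rw [heq y hy, heq y hy]
  have h9 := hfix g₀ g2 g1
  have h10 := Finset.card_le_card (show Γ₄ᶜ ⊆ fix g₀ from fun y hy =>
    mem_fix.mpr (heq y (Finset.mem_compl.mp hy)))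
  rw [Finset.card_compl, hΓ₄] at h10
  omega

/-- The theorem of Livingstone and Wagner. -/
theorem livingstone_wagner : ∀ k : ℕ, 1 ≤ k → 2 * k ≤ Fintype.card α → Homog G α k →
    KT G α (k - 1) ∧ (5 ≤ k → KT G α k) := by
  intro k
  induction k using Nat.strong_induction_on with
  | _ k ih =>
  intro hk hn h
  have hpred : KT G α (k - 1) := by
    rcases (show k = 1 ∨ 2 ≤ k by omega) with rfl | hk2
    · intro Γ f hΓ _
      exact ⟨1, fun a ha => absurd (Finset.card_pos.mpr ⟨a, ha⟩) (by omega)⟩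
    have h1 : Homog G α (k - 1) := homog_of_pretransitive (Cfsg.Agent.S0736.result G hk2
      (pretransitive_of_homog h) fun q _ hqk => by
        have := Nat.le_of_dvd (by omega) hqk
        omega)
    rcases (show k = 2 ∨ 3 ≤ k by omega) with rfl | hk3
    · exact kt_one h1
    obtain ⟨hKpred, hKfull⟩ := ih (k - 1) (by omega) (by omega) (by omega) h1
    rcases (show k ≤ 5 ∨ 6 ≤ k by omega) with hk5 | hk6
    · obtain ⟨j, rfl⟩ : ∃ j, k = j + 2 := ⟨k - 2, by omega⟩
      exact kt_small (by omega) (by omega) hn hKpred h1 h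
    · exact hKfull (by omega)
  exact ⟨hpred, fun h5 => kt_full h5 hn h hpred⟩

end CfsgLib.LW54
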