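import Cfsg.Agent.LW54.Base

/-!
Counting involutions: the semiregular base case of the lemma of Livingstone and Wagner.
-/

set_option autoImplicit false

namespace CfsgLib.LW54

open MulAction Equiv

variable {G α : Type*} [Group G] [MulAction G α] [Finite G] [Fintype α] [DecidableEq α]
variable {k h : ℕ} (hk : 4 ≤ k) (hn : k < Fintype.card α) (hK : KT G α k)
  (hsemi : ∀ g : G, g ≠ 1 → (fix g : Finset α).card ≤ k)
  (hh : ∀ Γ : Finset α, Γ.card = k → Nat.card (fixingSubgroup G (Γ : Set α)) = h)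

theorem two_mul_choose_two (w : ℕ) : 2 * w.choose 2 = w * (w - 1) := by
  have h := Nat.descFactorial_eq_factorial_mul_choose w 2
  simp [Nat.descFactorial_succ, Nat.factorial] at h
  rw [← h, Nat.mul_comm]

include hsemi hh in
theorem fix_lt (hodd : Odd h) {u : G} (hu : u * u = 1) (hu1 : u ≠ 1) :
    (fix u : Finset α).card < k := by
  refine lt_of_le_of_ne (hsemi u hu1) fun he => ?_
  have hmem : u ∈ fixingSubgroup G ((fix u : Finset α) : Set α) :=
    mem_fixing.mpr fun a ha => mem_fix.mp ha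
  have h2 := (hh _ he ▸ hodd).of_dvd_nat (Subgroup.orderOf_dvd_natCard _ hmem)
  rw [orderOf_eq_prime (by rw [pow_two, hu]) hu1] at h2
  exact (Nat.not_even_iff_odd.mpr h2) even_two

include hk hn hK hsemi hh in
theorem bound_even (heven : Even h) : Fintype.card α ≤ k + 2 * h := by
  classical
  haveI := Fintype.ofFinite G
  obtain ⟨Φ, -, hΦ⟩ := Finset.exists_subset_card_eq (s := (Finset.univ : Finset α)) (n := k - 2)
    (by rw [Finset.card_univ]; omega)
  set W := Finset.univ \ Φ with hW
  have hWc : W.card = Fintype.card α - k + 2 := by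
    rw [hW, Finset.card_univ_diff, hΦ]; omega
  set I := Finset.univ.filter fun g : G => g * g = 1 ∧ (∀ x ∈ Φ, g • x = x) ∧ (fix g : Finset α).card = k
    with hI
  have hmemI : ∀ {g}, g ∈ I ↔ g * g = 1 ∧ (∀ x ∈ Φ, g • x = x) ∧ (fix g : Finset α).card = k :=
    fun {g} => by simp [hI]
  have hfixW : ∀ g ∈ I, (W.filter fun c => g • c = c).card = 2 := by
    intro g hg
    obtain ⟨-, hΦg, hcard⟩ := hmemI.mp hg
    rw [show (W.filter fun c => g • c = c) = fix g \ Φ by
      ext x; simp [hW, mem_fix, and_comm],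
      Finset.card_sdiff_of_subset (fun x hx => mem_fix.mpr (hΦg x hx)), hcard, hΦ]
    omega
  have hmovW : ∀ g ∈ I, (W.filter fun c => g • c ≠ c).card = Fintype.card α - k := by
    intro g hg
    have := Finset.card_filter_add_card_filter_not (s := W) (fun c => g • c = c)
    rw [hfixW g hg, hWc] at this
    simp only [ne_eq]
    omega
  have hpres : ∀ g ∈ I, ∀ c ∈ W, g • c ∈ W := fun g hg c hc => by
    simp only [hW, Finset.mem_sdiff, Finset.mem_univ, true_and] at hc ⊢
    exact fun h' => hc (MulAction.injective g ((hmemI.mp hg).2.1 _ h') ▸ h')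
  have hle := (count_moved (h := h) hpres hmovW).1 (fun cd hcd => by
    obtain ⟨hc, hd, hcd'⟩ := Finset.mem_offDiag.mp hcd
    simp only [hW, Finset.mem_sdiff, Finset.mem_univ, true_and] at hc hd
    refine (card_agree_le (Γ := insert cd.1 (insert cd.2 Φ)) ?_).trans_eq (hh _ ?_)
    · intro g hg g' hg' x hx
      obtain ⟨hg, hgc⟩ := Finset.mem_filter.mp hg
      obtain ⟨hg', hgc'⟩ := Finset.mem_filter.mp hg'
      obtain ⟨g2, gΦ, -⟩ := hmemI.mp hg
      obtain ⟨g2', gΦ', -⟩ := hmemI.mp hg'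
      simp only [Finset.mem_insert] at hx
      rcases hx with rfl | rfl | hx
      · rw [hgc, hgc']
      · conv_lhs => rw [← hgc, ← mul_smul, g2, one_smul]
        conv_rhs => rw [← hgc', ← mul_smul, g2', one_smul]
      · rw [gΦ x hx, gΦ' x hx]
    · rw [Finset.card_insert_of_notMem, Finset.card_insert_of_notMem hd, hΦ]
      · omega
      · simp [hc, hcd'])
  have hge := (count_fixed (l := 1) hfixW).1 (fun P hP => by
    obtain ⟨hPW, hPc⟩ := Finset.mem_powersetCard.mp hP
    have hd : Disjoint Φ P := by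
      rw [Finset.disjoint_right]
      intro x hx
      have := hPW hx
      simpa [hW] using this
    have hΓ : (Φ ∪ P).card = k := by rw [Finset.card_union_of_disjoint hd, hΦ, hPc]; omega
    obtain ⟨⟨z, hzH⟩, hz⟩ := exists_prime_orderOf_dvd_card'
      (G := fixingSubgroup G ((Φ ∪ P : Finset α) : Set α)) 2 (by rw [hh _ hΓ]; exact heven.two_dvd)
    rw [Subgroup.orderOf_mk] at hz
    have hz2 : z * z = 1 := by rw [← pow_two, ← hz, pow_orderOf_eq_one]
    have hz1 : z ≠ 1 := fun e => by rw [e, orderOf_one] at hz; omega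
    have hfix : Φ ∪ P ⊆ fix z := fun x hx => mem_fix.mpr (mem_fixing.mp hzH x hx)
    refine Finset.card_pos.mpr ⟨z, Finset.mem_filter.mpr ⟨hmemI.mpr ⟨hz2, ?_, ?_⟩, ?_⟩⟩
    · exact fun x hx => mem_fixing.mp hzH x (Finset.mem_union_left _ hx)
    · exact le_antisymm (hsemi z hz1) (hΓ ▸ Finset.card_le_card hfix)
    · exact fun c hc => mem_fixing.mp hzH c (Finset.mem_union_right _ hc))
  rw [Nat.choose_self, one_mul, mul_one] at hge
  have h2 := two_mul_choose_two W.card
  have hmul : (Fintype.card α - k) * (W.card * (W.card - 1)) ≤ 2 * h * (W.card * (W.card - 1)) := by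
    calc (Fintype.card α - k) * (W.card * (W.card - 1)) = 2 * ((Fintype.card α - k) * W.card.choose 2) := by
          rw [← h2]; ring
      _ ≤ 2 * ((Fintype.card α - k) * I.card) := by gcongr
      _ ≤ 2 * (W.card * (W.card - 1) * h) := by gcongr
      _ = 2 * h * (W.card * (W.card - 1)) := by ring
  have := Nat.le_of_mul_le_mul_right hmul (Nat.mul_pos (by omega) (by omega))
  omega

/-- The involutions swapping a given pair and fixing the given points. -/
structure Frame (Ψ : Finset α) (a b : α) : Prop where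
  card : Ψ.card = k - 4
  ha : a ∉ Ψ
  hb : b ∉ Ψ
  hab : a ≠ b

include hk hn in
omit [Finite G] in
theorem exists_frame : ∃ (Ψ : Finset α) (a b : α), Frame (k := k) Ψ a b := by
  obtain ⟨T, -, hT⟩ := Finset.exists_subset_card_eq (s := (Finset.univ : Finset α)) (n := k - 2)
    (by rw [Finset.card_univ]; omega)
  obtain ⟨a, ha⟩ := Finset.card_pos.mp (show 0 < T.card by omega)
  obtain ⟨b, hb⟩ := Finset.card_pos.mp (show 0 < (T.erase a).card by
    rw [Finset.card_erase_of_mem ha]; omega)
  refine ⟨(T.erase a).erase b, a, b, ?_, ?_, ?_, (Finset.ne_of_mem_erase hb).symm⟩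
  · rw [Finset.card_erase_of_mem hb, Finset.card_erase_of_mem ha, hT]; omega
  · exact fun h' => Finset.notMem_erase a T (Finset.mem_of_mem_erase h')
  · exact Finset.notMem_erase _ _

include hK hsemi hh in
/-- A lift of the transposition `(a b)` fixing a prescribed pair. -/
theorem exists_swap_lift (hk : 4 ≤ k) (hodd : Odd h) {Ψ : Finset α} {a b : α} (hF : Frame (k := k) Ψ a b)
    {P : Finset α} (hP : P ⊆ Finset.univ \ insert a (insert b Ψ)) (hPc : P.card = 2) :
    ∃ u : G, u * u = 1 ∧ u • a = b ∧ u • b = a ∧ (∀ x ∈ Ψ, u • x = x) ∧ (∀ x ∈ P, u • x = x) ∧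
      k - 2 ≤ (fix u : Finset α).card ∧ (fix u : Finset α).card < k := by
  classical
  have hPd : ∀ x ∈ P, x ≠ a ∧ x ≠ b ∧ x ∉ Ψ := fun x hx => by
    have := hP hx
    simpa using this
  set Γ := insert a (insert b (Ψ ∪ P)) with hΓ
  have hΓc : Γ.card = k := by
    rw [hΓ, Finset.card_insert_of_notMem, Finset.card_insert_of_notMem,
      Finset.card_union_of_disjoint, hF.card, hPc]
    · omega
    · rw [Finset.disjoint_right]; exact fun x hx => (hPd x hx).2.2
    · simp only [Finset.mem_union]; rintro (h' | h')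
      exacts [hF.hb h', (hPd b h').2.1 rfl]
    · simp only [Finset.mem_insert, Finset.mem_union]; rintro (h' | h' | h')
      exacts [hF.hab h', hF.ha h', (hPd a h').1 rfl]
  obtain ⟨g, hg⟩ := hK.perm hΓc.le (Equiv.swap a b)
  have hmap : ∀ x ∈ Γ, Equiv.swap a b x ∈ Γ := fun x hx => by
    rcases Equiv.swap_apply_eq_iff.mp (rfl : Equiv.swap a b x = Equiv.swap a b x) with -
    by_cases hxa : x = a
    · subst hxa; simp [hΓ]
    by_cases hxb : x = b
    · subst hxb; simp [hΓ]
    rwa [Equiv.swap_apply_of_ne_of_ne hxa hxb]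
  obtain ⟨u, hu2, hu⟩ := exists_involution (hh Γ hΓc ▸ hodd) (g := g) (fun x hx => by
    rw [hg x hx, hg _ (hmap x hx), Equiv.swap_apply_self])
  have hua : u • a = b := by rw [hu a (by simp [hΓ]), hg a (by simp [hΓ]), Equiv.swap_apply_left]
  have hfix : ∀ x ∈ Ψ ∪ P, u • x = x := fun x hx => by
    have hxΓ : x ∈ Γ := by simp only [hΓ, Finset.mem_insert]; exact Or.inr (Or.inr hx)
    rw [hu x hxΓ, hg x hxΓ, Equiv.swap_apply_of_ne_of_ne] <;>
      rintro rfl <;> rcases Finset.mem_union.mp hx with h' | h'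
    exacts [hF.ha h', (hPd _ h').1 rfl, hF.hb h', (hPd _ h').2.1 rfl]
  refine ⟨u, hu2, hua, by rw [← hua, ← mul_smul, hu2, one_smul],
    fun x hx => hfix x (Finset.mem_union_left _ hx), fun x hx => hfix x (Finset.mem_union_right _ hx),
    ?_, fix_lt hsemi hh hodd hu2 fun e => hF.hab (by rw [← hua, e, one_smul])⟩
  refine le_trans ?_ (Finset.card_le_card (show Ψ ∪ P ⊆ fix u from fun x hx => mem_fix.mpr (hfix x hx)))
  rw [Finset.card_union_of_disjoint, hF.card, hPc]
  · omega
  · rw [Finset.disjoint_right]; exact fun x hx => (hPd x hx).2.2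

include hk hn hK hsemi hh in
/-- The trichotomy. -/
theorem bound_or_seven : Fintype.card α ≤ k + 2 * h ∨
    (h = 1 ∧ Fintype.card α = k + 7 ∧ ∀ (Γ : Finset α) (a b c d : α) (v : G), Γ.card = k →
      Dbl Γ a b c d v → (fix v : Finset α).card + 1 = k) := by
  classical
  haveI := Fintype.ofFinite G
  rcases Nat.even_or_odd h with heven | hodd
  · exact Or.inl (bound_even hk hn hK hsemi hh heven)
  by_contra hcon
  rw [not_or, not_le] at hcon
  obtain ⟨hbig, hcon⟩ := hcon
  have hh1 : 1 ≤ h := hodd.pos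
  obtain ⟨Ψ, a, b, hF⟩ := exists_frame (k := k) hk hn (α := α)
  set W := Finset.univ \ insert a (insert b Ψ) with hW
  have hWc : W.card = Fintype.card α - k + 2 := by
    rw [hW, Finset.card_univ_diff, Finset.card_insert_of_notMem, Finset.card_insert_of_notMem hF.hb,
      hF.card]
    · omega
    · simp [hF.hab, hF.ha]
  -- the common number of fixed points
  set r := if Even (Fintype.card α - k) then 2 else 3 with hr
  have hr23 : r = 2 ∨ r = 3 := by rw [hr]; split_ifs <;> simp
  have hfixnum : ∀ u : G, u * u = 1 → k - 2 ≤ (fix u : Finset α).card →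
      (fix u : Finset α).card < k → (fix u : Finset α).card = k - 4 + r := by
    intro u hu h1 h2
    have := fix_parity (α := α) hu
    rw [hr]
    split_ifs with he
    · obtain ⟨i, hi⟩ := he; omega
    · obtain ⟨i, hi⟩ := Nat.not_even_iff_odd.mp he; omega
  set I := Finset.univ.filter fun g : G => g * g = 1 ∧ g • a = b ∧ g • b = a ∧
    (∀ x ∈ Ψ, g • x = x) ∧ (fix g : Finset α).card = k - 4 + r with hI
  have hmemI : ∀ {g}, g ∈ I ↔ g * g = 1 ∧ g • a = b ∧ g • b = a ∧ (∀ x ∈ Ψ, g • x = x) ∧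
      (fix g : Finset α).card = k - 4 + r := fun {g} => by simp [hI]
  have hfixW : ∀ g ∈ I, (W.filter fun c => g • c = c).card = r := by
    intro g hg
    obtain ⟨-, ga, gb, hΨg, hcard⟩ := hmemI.mp hg
    rw [show (W.filter fun c => g • c = c) = fix g \ Ψ by
      ext x
      simp only [hW, Finset.mem_filter, Finset.mem_sdiff, Finset.mem_univ, true_and, Finset.mem_insert,
        mem_fix]
      refine ⟨fun h' => ⟨h'.2, fun e => h'.1 (Or.inr (Or.inr e))⟩, fun h' => ⟨?_, h'.1⟩⟩
      rintro (rfl | rfl | e)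
      exacts [hF.hab (h'.1.symm.trans ga), hF.hab (gb.symm.trans h'.1), h'.2 e],
      Finset.card_sdiff_of_subset (fun x hx => mem_fix.mpr (hΨg x hx)), hcard, hF.card]
    omega
  have hmovW : ∀ g ∈ I, (W.filter fun c => g • c ≠ c).card = Fintype.card α - k + 2 - r := by
    intro g hg
    have := Finset.card_filter_add_card_filter_not (s := W) (fun c => g • c = c)
    rw [hfixW g hg, hWc] at this
    simp only [ne_eq]
    omega
  have hpres : ∀ g ∈ I, ∀ c ∈ W, g • c ∈ W := fun g hg c hc => by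
    obtain ⟨g2, ga, gb, hΨg, -⟩ := hmemI.mp hg
    simp only [hW, Finset.mem_sdiff, Finset.mem_univ, true_and, Finset.mem_insert] at hc ⊢
    have e : c = g • g • c := by rw [← mul_smul, g2, one_smul]
    rintro (h' | h' | h')
    · exact hc (Or.inr (Or.inl (by rw [e, h', ga])))
    · exact hc (Or.inl (by rw [e, h', gb]))
    · exact hc (Or.inr (Or.inr (by rw [e, hΨg _ h']; exact h')))
  have hdbl : ∀ g ∈ I, ∀ c ∈ W, ∀ d ∈ W, c ≠ d → g • c = d →
      Dbl (insert a (insert b (insert c (insert d Ψ)))) a b c d g := by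
    intro g hg c hc d hd hcd hgc
    obtain ⟨g2, ga, gb, hΨg, -⟩ := hmemI.mp hg
    simp only [hW, Finset.mem_sdiff, Finset.mem_univ, true_and, Finset.mem_insert, not_or] at hc hd
    refine ⟨by simp, by simp, by simp, by simp, hF.hab, Ne.symm hc.1, Ne.symm hd.1, Ne.symm hc.2.1,
      Ne.symm hd.2.1, hcd, ga, gb, hgc, by rw [← hgc, ← mul_smul, g2, one_smul],
      fun x hx xa xb xc xd => ?_⟩
    simp only [Finset.mem_insert, xa, xb, xc, xd, false_or] at hx
    exact hΨg x hx
  have hΓc : ∀ c ∈ W, ∀ d ∈ W, c ≠ d → (insert a (insert b (insert c (insert d Ψ)))).card = k := by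
    intro c hc d hd hcd
    simp only [hW, Finset.mem_sdiff, Finset.mem_univ, true_and, Finset.mem_insert, not_or] at hc hd
    rw [Finset.card_insert_of_notMem, Finset.card_insert_of_notMem, Finset.card_insert_of_notMem,
      Finset.card_insert_of_notMem hd.2.2, hF.card]
    · omega
    · simp [hcd, hc.2.2]
    · simp [Ne.symm hc.2.1, Ne.symm hd.2.1, hF.hb]
    · simp [hF.hab, Ne.symm hc.1, Ne.symm hd.1, hF.ha]
  have hcap : ∀ cd ∈ W.offDiag, (I.filter fun g => g • cd.1 = cd.2).card ≤ h := by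
    intro cd hcd
    obtain ⟨hc, hd, hcd'⟩ := Finset.mem_offDiag.mp hcd
    refine (card_agree_le (Γ := insert a (insert b (insert cd.1 (insert cd.2 Ψ)))) ?_).trans_eq
      (hh _ (hΓc _ hc _ hd hcd'))
    intro g hg g' hg' x hx
    obtain ⟨hg, hgc⟩ := Finset.mem_filter.mp hg
    obtain ⟨hg', hgc'⟩ := Finset.mem_filter.mp hg'
    have D := hdbl g hg _ hc _ hd hcd' hgc
    have D' := hdbl g' hg' _ hc _ hd hcd' hgc'
    by_cases xa : x = a
    · rw [xa, D.va, D'.va]
    by_cases xb : x = b
    · rw [xb, D.vb, D'.vb]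
    by_cases xc : x = cd.1
    · rw [xc, D.vc, D'.vc]
    by_cases xd : x = cd.2
    · rw [xd, D.vd, D'.vd]
    rw [D.rest x hx xa xb xc xd, D'.rest x hx xa xb xc xd]
  have hne : ∀ P ∈ W.powersetCard 2, ∃ u ∈ I, ∀ c ∈ P, u • c = c := by
    intro P hP
    obtain ⟨hPW, hPc⟩ := Finset.mem_powersetCard.mp hP
    obtain ⟨u, u2, ua, ub, uΨ, uP, u1, u3⟩ := exists_swap_lift hK hsemi hh hk hodd hF hPW hPc
    exact ⟨u, hmemI.mpr ⟨u2, ua, ub, uΨ, hfixnum u u2 u1 u3⟩, uP⟩
  -- one double transposition lift with fixed points outside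
  obtain ⟨Γ₀, hΓ₀, c₀, d₀, u₀, hu₀, hu₀2, hu₀f⟩ : ∃ Γ₀ : Finset α, Γ₀.card = k ∧ ∃ c d, ∃ u : G,
      Dbl Γ₀ a b c d u ∧ u * u = 1 ∧ (fix u : Finset α).card = k - 4 + r := by
    obtain ⟨P, hP⟩ := Finset.powersetCard_nonempty.mpr (show 2 ≤ W.card by omega)
    obtain ⟨u, hu, -⟩ := hne P hP
    obtain ⟨c, hc⟩ := Finset.card_pos.mp (show 0 < (W.filter fun c => u • c ≠ c).card by
      rw [hmovW u hu]; omega)
    obtain ⟨hc, huc⟩ := Finset.mem_filter.mp hc
    exact ⟨_, hΓc c hc _ (hpres u hu c hc) (Ne.symm huc), c, u • c, u,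
      hdbl u hu c hc _ (hpres u hu c hc) (Ne.symm huc) rfl, (hmemI.mp hu).1, (hmemI.mp hu).2.2.2.2⟩
  have hconj : ∀ {Γ : Finset α} {p q s t : α}, Γ.card = k → p ∈ Γ → q ∈ Γ → s ∈ Γ → t ∈ Γ → p ≠ q →
      p ≠ s → p ≠ t → q ≠ s → q ≠ t → s ≠ t → ∃ v : G, Dbl Γ p q s t v ∧ v * v = 1 ∧
        (fix v : Finset α).card = k - 4 + r ∧ (fix v \ Γ).card = r := by
    intro Γ p q s t hΓ h1 h2 h3 h4 n1 n2 n3 n4 n5 n6
    obtain ⟨g, hg⟩ := exists_dbl_conj hK hΓ₀ hΓ hu₀ h1 h2 h3 h4 n1 n2 n3 n4 n5 n6
    have h5 : (fix (g * u₀ * g⁻¹) : Finset α).card = k - 4 + r := by rw [card_fix_conj, hu₀f]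
    refine ⟨_, hg, ?_, h5, ?_⟩
    · rw [show g * u₀ * g⁻¹ * (g * u₀ * g⁻¹) = g * (u₀ * u₀) * g⁻¹ by group, hu₀2]; group
    · have := hg.card_fix
      rw [h5, hΓ] at this
      omega
  -- h = 1
  have hone : h = 1 := by
    rcases hr23 with h2 | h3
    · -- inversion by three commuting lifts
      obtain ⟨Γ, -, hΓ⟩ := Finset.exists_subset_card_eq (s := (Finset.univ : Finset α)) (n := k)
        (by rw [Finset.card_univ]; omega)
      obtain ⟨Q, hQΓ, hQc⟩ := Finset.exists_subset_card_eq (s := Γ) (n := 4) (by omega)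
      obtain ⟨p, q, s, t, n1, n2, n3, n4, n5, n6, rfl⟩ := Finset.card_eq_four.mp hQc
      simp only [Finset.insert_subset_iff, Finset.singleton_subset_iff] at hQΓ
      obtain ⟨mp, mq, ms, mt⟩ := hQΓ
      obtain ⟨v₁, D1, e1, -, f1⟩ := hconj hΓ mp mq ms mt n1 n2 n3 n4 n5 n6
      obtain ⟨v₂, D2, e2, -, f2⟩ := hconj hΓ mp ms mq mt n2 n1 n3 n4.symm n6 n5
      obtain ⟨v₃, D3, e3, -, f3⟩ := hconj hΓ mp mt mq ms n3 n1 n2 n5.symm n6.symm n4
      have inv : ∀ {p q s t : α} {v : G}, Dbl Γ p q s t v → v * v = 1 → (fix v \ Γ).card = r →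
          ∀ x ∈ fixingSubgroup G (Γ : Set α), v * x * v = x⁻¹ := fun D e f =>
        (inverts hodd hΓ hh hsemi e D.maps (Finset.card_pos.mp (by omega)) (by omega)).2
      have i1 := inv D1 e1 f1
      have i2 := inv D2 e2 f2
      have i3 := inv D3 e3 f3
      have hagree : ∀ x ∈ Γ, (v₁ * v₂) • x = v₃ • x := by
        intro x hx
        rw [mul_smul]
        by_cases xp : x = p
        · rw [xp, D2.va, D1.vc, D3.va]
        by_cases xq : x = q
        · rw [xq, D2.vc, D1.vd, D3.vc]
        by_cases xs : x = s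
        · rw [xs, D2.vb, D1.va, D3.vd]
        by_cases xt : x = t
        · rw [xt, D2.vd, D1.vb, D3.vb]
        rw [D2.rest x hx xp xs xq xt, D1.rest x hx xp xq xs xt, D3.rest x hx xp xt xq xs]
      set y := v₃⁻¹ * (v₁ * v₂) with hy
      have hyH : y ∈ fixingSubgroup G (Γ : Set α) :=
        mem_fixing.mpr fun x hx => by rw [hy, mul_smul, hagree x hx, inv_smul_smul]
      rw [← hh Γ hΓ, Subgroup.card_eq_one, eq_bot_iff]
      intro x hx
      rw [Subgroup.mem_bot]
      -- `x` is inverted and centralised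
      have hcomm : ∀ z ∈ fixingSubgroup G (Γ : Set α), ∀ w ∈ fixingSubgroup G (Γ : Set α),
          Commute z w := fun z hz w hw => by
        have h4 := i1 (z * w) (mul_mem hz hw)
        rw [show v₁ * (z * w) * v₁ = (v₁ * z * v₁) * (v₁ * w * v₁) by
          calc v₁ * (z * w) * v₁ = v₁ * z * (v₁ * v₁) * w * v₁ := by rw [e1]; group
            _ = _ := by group, i1 z hz, i1 w hw, mul_inv_rev] at h4
        have h5 := congrArg (·⁻¹) h4
        simp only [mul_inv_rev, inv_inv] at h5
        exact h5.symm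
      have hA : (v₁ * v₂) * x * (v₁ * v₂)⁻¹ = x := by
        rw [mul_inv_rev, inv_eq_of_mul_eq_one_right e1, inv_eq_of_mul_eq_one_right e2,
          show v₁ * v₂ * x * (v₂ * v₁) = v₁ * (v₂ * x * v₂) * v₁ by group, i2 x hx, i1 _ (inv_mem hx), inv_inv]
      rw [show v₁ * v₂ = v₃ * y by rw [hy]; group, show v₃ * y * x * (v₃ * y)⁻¹ = v₃ * (y * x * y⁻¹) * v₃⁻¹
        by group, (hcomm y hyH x hx).eq, mul_inv_cancel_right, inv_eq_of_mul_eq_one_right e3,
        i3 x hx] at hA
      by_contra hx1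
      have h6 := (hh Γ hΓ ▸ hodd).of_dvd_nat (Subgroup.orderOf_dvd_natCard _ hx)
      rw [orderOf_eq_prime (p := 2) (by rw [pow_two, ← inv_eq_iff_mul_eq_one]; exact hA) hx1] at h6
      exact (Nat.not_even_iff_odd.mpr h6) even_two
    · -- many lifts of a transposition
      have hlow : ∀ P ∈ W.powersetCard 2, h ≤ (I.filter fun g => ∀ c ∈ P, g • c = c).card := by
        intro P hP
        obtain ⟨u, hu, uP⟩ := hne P hP
        obtain ⟨u2, ua, ub, uΨ, uc⟩ := hmemI.mp hu
        obtain ⟨hPW, hPc⟩ := Finset.mem_powersetCard.mp hP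
        set Γ := insert a (insert b (Ψ ∪ P)) with hΓ
        have hPd : ∀ x ∈ P, x ≠ a ∧ x ≠ b ∧ x ∉ Ψ := fun x hx => by
          have := hPW hx
          simpa [hW] using this
        have hΨP : Disjoint Ψ P := Finset.disjoint_right.mpr fun x hx => (hPd x hx).2.2
        have hΓk : Γ.card = k := by
          rw [hΓ, Finset.card_insert_of_notMem, Finset.card_insert_of_notMem,
            Finset.card_union_of_disjoint hΨP, hF.card, hPc]
          · omega
          · simp only [Finset.mem_union]; rintro (h' | h')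
            exacts [hF.hb h', (hPd b h').2.1 rfl]
          · simp only [Finset.mem_insert, Finset.mem_union]; rintro (h' | h' | h')
            exacts [hF.hab h', hF.ha h', (hPd a h').1 rfl]
        have hmap : ∀ x ∈ Γ, u • x ∈ Γ := fun x hx => by
          simp only [hΓ, Finset.mem_insert, Finset.mem_union] at hx ⊢
          rcases hx with rfl | rfl | hx | hx
          · exact Or.inr (Or.inl ua)
          · exact Or.inl ub
          · exact Or.inr (Or.inr (Or.inl (by rwa [uΨ x hx])))
          · exact Or.inr (Or.inr (Or.inr (by rwa [uP x hx])))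
        have hone : (fix u \ Γ).card = 1 := by
          have h7 := Finset.card_sdiff_add_card_inter (fix u) Γ
          have h8 : fix u ∩ Γ = Ψ ∪ P := by
            ext x
            simp only [Finset.mem_inter, mem_fix, hΓ, Finset.mem_insert, Finset.mem_union]
            constructor
            · rintro ⟨hx, rfl | rfl | hx'⟩
              exacts [absurd (hx.symm.trans ua) hF.hab, absurd (ub.symm.trans hx) hF.hab, hx']
            · exact fun hx => ⟨hx.elim (uΨ x) (uP x), Or.inr (Or.inr hx)⟩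
          rw [h8, Finset.card_union_of_disjoint hΨP, hF.card, hPc, uc, h3] at h7
          omega
        have hinv := (inverts hodd hΓk hh hsemi u2 hmap (Finset.card_pos.mp (by omega)) (by omega)).1
        rw [← hh Γ hΓk, ← Nat.card_eq_finsetCard]
        refine Nat.card_le_card_of_injective
          (fun x => ⟨x.1 * u * x.1⁻¹, Finset.mem_filter.mpr ⟨hmemI.mpr ⟨?_, ?_, ?_, ?_, ?_⟩, ?_⟩⟩) ?_
        · rw [show x.1 * u * x.1⁻¹ * (x.1 * u * x.1⁻¹) = x.1 * (u * u) * x.1⁻¹ by group, u2]; group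
        · rw [mul_smul, mul_smul, mem_fixing.mp (inv_mem x.2) a (by simp [hΓ]), ua,
            mem_fixing.mp x.2 b (by simp [hΓ])]
        · rw [mul_smul, mul_smul, mem_fixing.mp (inv_mem x.2) b (by simp [hΓ]), ub,
            mem_fixing.mp x.2 a (by simp [hΓ])]
        · intro z hz
          rw [mul_smul, mul_smul, mem_fixing.mp (inv_mem x.2) z (by simp [hΓ, hz]), uΨ z hz,
            mem_fixing.mp x.2 z (by simp [hΓ, hz])]
        · rw [card_fix_conj, uc]
        · intro z hz
          rw [mul_smul, mul_smul, mem_fixing.mp (inv_mem x.2) z (by simp [hΓ, hz]), uP z hz,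
            mem_fixing.mp x.2 z (by simp [hΓ, hz])]
        · intro x y hxy
          have h9 := congrArg Subtype.val hxy
          simp only at h9
          have hc : Commute u (y.1⁻¹ * x.1) := by
            show u * _ = _ * u
            calc u * (y.1⁻¹ * x.1) = y.1⁻¹ * (y.1 * u * y.1⁻¹) * x.1 := by group
              _ = y.1⁻¹ * (x.1 * u * x.1⁻¹) * x.1 := by rw [h9]
              _ = y.1⁻¹ * x.1 * u := by group
          exact Subtype.ext (inv_mul_eq_one.mp (hinv _ (mul_mem (inv_mem y.2) x.2) hc)).symm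
      have hA := (count_moved hpres hmovW).1 hcap
      have hB := (count_fixed hfixW).1 hlow
      rw [h3] at hA hB
      rw [show Nat.choose 3 2 = 3 from rfl] at hB
      have h2c := two_mul_choose_two W.card
      have hmul : (W.card - 3) * (W.card * (W.card - 1) * h) ≤ 6 * (W.card * (W.card - 1) * h) := by
        calc (W.card - 3) * (W.card * (W.card - 1) * h) = 2 * ((W.card - 3) * (W.card.choose 2 * h)) := by
              rw [← h2c]; ring
          _ ≤ 2 * ((W.card - 3) * (3 * I.card)) := by gcongr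
          _ = 6 * ((Fintype.card α - k + 2 - 3) * I.card) := by rw [hWc]; ring
          _ ≤ _ := by gcongr
      have h7 := Nat.le_of_mul_le_mul_right hmul (Nat.mul_pos (Nat.mul_pos (by omega) (by omega)) hodd.pos)
      -- h divides the number of outside points
      obtain ⟨i, hi⟩ := hodd
      by_contra hh1
      obtain rfl : h = 3 := by omega
      obtain ⟨Γ, -, hΓ⟩ := Finset.exists_subset_card_eq (s := (Finset.univ : Finset α)) (n := k)
        (by rw [Finset.card_univ]; omega)
      haveI := Fact.mk Nat.prime_three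
      obtain ⟨⟨z, hzH⟩, hz⟩ := exists_prime_orderOf_dvd_card'
        (G := fixingSubgroup G (Γ : Set α)) 3 (by rw [hh _ hΓ])
      rw [Subgroup.orderOf_mk] at hz
      have hz1 : z ≠ 1 := fun e => by rw [e, orderOf_one] at hz; omega
      have hzf : (fix z : Finset α).card = k := le_antisymm (hsemi z hz1)
        (hΓ ▸ Finset.card_le_card fun x hx => mem_fix.mpr (mem_fixing.mp hzH x hx))
      have := card_fix_modEq (α := α) (i := 1) Nat.prime_three (g := z)
        (by rw [pow_one, ← hz, pow_orderOf_eq_one])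
      rw [hzf] at this
      unfold Nat.ModEq at this
      omega
  subst hone
  -- all double lifts have the same number of fixed points
  have hdblfix : ∀ (Γ : Finset α) (p q s t : α) (v : G), Γ.card = k → Dbl Γ p q s t v →
      (fix v : Finset α).card = k - 4 + r := by
    intro Γ p q s t v hΓ D
    obtain ⟨v', D', -, f, -⟩ := hconj hΓ D.ma D.mb D.mc D.md D.nab D.nac D.nad D.nbc D.nbd D.ncd
    have : v = v' := eq_of_agree (hh Γ hΓ) fun x hx => by
      by_cases xa : x = p
      · rw [xa, D.va, D'.va]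
      by_cases xb : x = q
      · rw [xb, D.vb, D'.vb]
      by_cases xc : x = s
      · rw [xc, D.vc, D'.vc]
      by_cases xd : x = t
      · rw [xd, D.vd, D'.vd]
      rw [D.rest x hx xa xb xc xd, D'.rest x hx xa xb xc xd]
    rw [this, f]
  have hA := (count_moved hpres hmovW).1 hcap
  have hB := (count_fixed (l := 1) hfixW).1 fun P hP => by
    obtain ⟨u, hu, uP⟩ := hne P hP
    exact Finset.card_pos.mpr ⟨u, Finset.mem_filter.mpr ⟨hu, uP⟩⟩
  have hA' := (count_moved (h := 1) hpres hmovW).2 fun cd hcd => by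
    obtain ⟨hc, hd, hcd'⟩ := Finset.mem_offDiag.mp hcd
    set Γ := insert a (insert b (insert cd.1 (insert cd.2 Ψ))) with hΓ
    have h1 := hc; have h2 := hd
    simp only [hW, Finset.mem_sdiff, Finset.mem_univ, true_and, Finset.mem_insert, not_or] at h1 h2
    obtain ⟨v, D, v2, vf, -⟩ := hconj (hΓc _ hc _ hd hcd') (p := a) (q := b) (s := cd.1) (t := cd.2)
      (by simp) (by simp) (by simp) (by simp) hF.hab (Ne.symm h1.1) (Ne.symm h2.1) (Ne.symm h1.2.1)
      (Ne.symm h2.2.1) hcd'
    refine Finset.card_pos.mpr ⟨v, Finset.mem_filter.mpr ⟨hmemI.mpr ⟨v2, D.va, D.vb, ?_, vf⟩, D.vc⟩⟩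
    intro x hx
    refine D.rest x (by simp [hx]) ?_ ?_ ?_ ?_ <;> rintro rfl
    exacts [hF.ha hx, hF.hb hx, h1.2.2 hx, h2.2.2 hx]
  have hB' := (count_fixed (l := 1) hfixW).2 fun P hP => by
    obtain ⟨hPW, hPc⟩ := Finset.mem_powersetCard.mp hP
    have hPd : ∀ x ∈ P, x ≠ a ∧ x ≠ b ∧ x ∉ Ψ := fun x hx => by
      have := hPW hx
      simpa [hW] using this
    refine (card_agree_le (Γ := insert a (insert b (Ψ ∪ P))) ?_).trans_eq (hh _ ?_)
    · intro g hg g' hg' x hx
      obtain ⟨hg, gP⟩ := Finset.mem_filter.mp hg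
      obtain ⟨hg', gP'⟩ := Finset.mem_filter.mp hg'
      obtain ⟨-, ga, gb, gΨ, -⟩ := hmemI.mp hg
      obtain ⟨-, ga', gb', gΨ', -⟩ := hmemI.mp hg'
      simp only [Finset.mem_insert, Finset.mem_union] at hx
      rcases hx with rfl | rfl | hx | hx
      · rw [ga, ga']
      · rw [gb, gb']
      · rw [gΨ x hx, gΨ' x hx]
      · rw [gP x hx, gP' x hx]
    · rw [Finset.card_insert_of_notMem, Finset.card_insert_of_notMem,
        Finset.card_union_of_disjoint, hF.card, hPc]
      · omega
      · rw [Finset.disjoint_right]; exact fun x hx => (hPd x hx).2.2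
      · simp only [Finset.mem_union]; rintro (h' | h')
        exacts [hF.hb h', (hPd b h').2.1 rfl]
      · simp only [Finset.mem_insert, Finset.mem_union]; rintro (h' | h' | h')
        exacts [hF.hab h', hF.ha h', (hPd a h').1 rfl]
  have hAeq := le_antisymm hA hA'
  have hBeq := le_antisymm hB' hB
  have h2c := two_mul_choose_two W.card
  rw [mul_one] at hAeq hBeq
  rcases hr23 with h2 | h3
  · rw [h2] at hAeq hBeq
    rw [show Nat.choose 2 2 = 1 from rfl, one_mul] at hBeq
    rw [hBeq, ← h2c] at hAeq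
    have := Nat.eq_of_mul_eq_mul_right (show 0 < W.card.choose 2 from Nat.choose_pos (by omega)) hAeq
    omega
  · rw [h3] at hAeq hBeq hdblfix
    rw [show Nat.choose 3 2 = 3 from rfl] at hBeq
    have h6 : (Fintype.card α - k + 2 - 3) * W.card.choose 2 = 6 * W.card.choose 2 := by
      calc _ = 3 * ((Fintype.card α - k + 2 - 3) * I.card) := by rw [← hBeq]; ring
        _ = _ := by rw [hAeq, ← h2c]; ring
    have := Nat.eq_of_mul_eq_mul_right (show 0 < W.card.choose 2 from Nat.choose_pos (by omega)) h6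
    exact hcon ⟨rfl, by omega, fun Γ p q s t v hΓ D => by have := hdblfix Γ p q s t v hΓ D; omega⟩

end CfsgLib.LW54
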