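import Cfsg.Agent.LW54.Semi

/-!
The exceptional base case with seven outside points.
-/

set_option autoImplicit false

namespace CfsgLib.LW54

open MulAction Equiv

variable {G α : Type*} [Group G] [MulAction G α] [Finite G] [Fintype α] [DecidableEq α]
variable {k : ℕ} (hk : 4 ≤ k) (hn : Fintype.card α = k + 7) (hK : KT G α k)
  (hsemi : ∀ g : G, g ≠ 1 → (fix g : Finset α).card ≤ k)
  (hh : ∀ Γ : Finset α, Γ.card = k → Nat.card (fixingSubgroup G (Γ : Set α)) = 1)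
  (hdf : ∀ (Γ : Finset α) (a b c d : α) (v : G), Γ.card = k → Dbl Γ a b c d v →
    (fix v : Finset α).card + 1 = k)

/-- The action on `Γ` is that of `σ`. -/
def Lift (Γ : Finset α) (σ : Perm α) (g : G) : Prop := ∀ x ∈ Γ, g • x = σ x

theorem Lift.maps {Γ : Finset α} {σ : Perm α} {g : G} (h : Lift Γ σ g) (hσ : ∀ x ∈ Γ, σ x ∈ Γ) :
    ∀ x ∈ Γ, g • x ∈ Γ := fun x hx => by rw [h x hx]; exact hσ x hx

theorem Lift.maps_out {Γ : Finset α} {σ : Perm α} {g : G} (h : Lift Γ σ g) (hσ : ∀ x ∈ Γ, σ x ∈ Γ)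
    {x : α} (hx : x ∉ Γ) : g • x ∉ Γ := fun h' => by
  have himg : Γ.image (g • ·) = Γ := Finset.eq_of_subset_of_card_le
    (fun z hz => by
      obtain ⟨w, hw, rfl⟩ := Finset.mem_image.mp hz
      exact h.maps hσ w hw)
    (by rw [Finset.card_image_of_injective _ (MulAction.injective g)])
  obtain ⟨w, hw, hwx⟩ := Finset.mem_image.mp (himg.symm ▸ h')
  exact hx (MulAction.injective g hwx ▸ hw)

theorem Lift.mul {Γ : Finset α} {σ τ : Perm α} {g g' : G} (h : Lift Γ σ g) (h' : Lift Γ τ g')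
    (hτ : ∀ x ∈ Γ, τ x ∈ Γ) : Lift Γ (σ * τ) (g * g') := fun x hx => by
  rw [mul_smul, h' x hx, h _ (hτ x hx), Perm.mul_apply]

theorem swap_maps {Γ : Finset α} {a b : α} (ha : a ∈ Γ) (hb : b ∈ Γ) :
    ∀ x ∈ Γ, Equiv.swap a b x ∈ Γ := fun x hx => by
  rw [Equiv.swap_apply_def]
  split_ifs <;> assumption

/-- The outside fixed point of the lift of a transposition. -/
def Ex (G : Type*) {α : Type*} [Group G] [MulAction G α] [Fintype α] [DecidableEq α] (Γ : Finset α)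
    (a b e : α) : Prop :=
  e ∉ Γ ∧ ∀ g : G, Lift Γ (Equiv.swap a b) g → g • e = e

include hh in
theorem lift_unique {Γ : Finset α} (hΓ : Γ.card = k) {σ : Perm α} {g g' : G} (h : Lift Γ σ g)
    (h' : Lift Γ σ g') : g = g' := eq_of_agree (hh Γ hΓ) fun x hx => by rw [h x hx, h' x hx]

include hh in
theorem swap_lift_sq {Γ : Finset α} (hΓ : Γ.card = k) {a b : α} (ha : a ∈ Γ) (hb : b ∈ Γ) {g : G}
    (h : Lift Γ (Equiv.swap a b) g) : g * g = 1 :=
  eq_of_agree (hh Γ hΓ) fun x hx => by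
    rw [mul_smul, h x hx, h _ (swap_maps ha hb x hx), Equiv.swap_apply_self, one_smul]

include hn hK hsemi hh in
theorem exists_lift_swap {Γ : Finset α} (hΓ : Γ.card = k) {a b : α} (ha : a ∈ Γ) (hb : b ∈ Γ)
    (hab : a ≠ b) : ∃ g : G, ∃ e : α, Lift Γ (Equiv.swap a b) g ∧ g * g = 1 ∧ Ex G Γ a b e ∧
      ∀ x, x ∉ Γ → g • x = x → x = e := by
  obtain ⟨g, hg⟩ := hK.perm hΓ.le (Equiv.swap a b)
  have hL : Lift Γ (Equiv.swap a b) g := hg
  have g2 := swap_lift_sq hh hΓ ha hb hL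
  have hg1 : g ≠ 1 := fun e => hab (by
    have := hg a ha
    rwa [e, one_smul, Equiv.swap_apply_left] at this)
  have hlt := fix_lt hsemi hh odd_one g2 hg1
  have hinter : fix g ∩ Γ = (Γ.erase a).erase b := by
    ext x
    simp only [Finset.mem_inter, mem_fix, Finset.mem_erase]
    refine ⟨fun hx => ?_, fun hx => ?_⟩
    · rw [hg x hx.2] at hx
      refine ⟨?_, ?_, hx.2⟩ <;> rintro rfl
      · exact hab (by simpa [Equiv.swap_apply_right] using hx.1)
      · exact hab (by simpa [Equiv.swap_apply_left] using hx.1.symm)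
    · exact ⟨by rw [hg x hx.2.2, Equiv.swap_apply_of_ne_of_ne hx.2.1 hx.1], hx.2.2⟩
  have hc := Finset.card_inter_add_card_sdiff (fix g) Γ
  rw [hinter, Finset.card_erase_of_mem (Finset.mem_erase.mpr ⟨hab.symm, hb⟩),
    Finset.card_erase_of_mem ha, hΓ] at hc
  have hpar := fix_parity (α := α) g2
  have hk2 : 1 < k := hΓ ▸ Finset.one_lt_card.mpr ⟨a, ha, b, hb, hab⟩
  have h1 : (fix g \ Γ).card = 1 := by omega
  obtain ⟨e, he⟩ := Finset.card_eq_one.mp h1
  have heM : e ∈ fix g \ Γ := he ▸ Finset.mem_singleton_self e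
  rw [Finset.mem_sdiff, mem_fix] at heM
  refine ⟨g, e, hL, g2, ⟨heM.2, fun g' hg' => lift_unique hh hΓ hg' hL ▸ heM.1⟩, fun x hx hgx => ?_⟩
  have : x ∈ fix g \ Γ := Finset.mem_sdiff.mpr ⟨mem_fix.mpr hgx, hx⟩
  rwa [he, Finset.mem_singleton] at this

include hn hK hsemi hh in
theorem ex_unique {Γ : Finset α} (hΓ : Γ.card = k) {a b : α} (ha : a ∈ Γ) (hb : b ∈ Γ) (hab : a ≠ b)
    {e x : α} (he : Ex G Γ a b e) {g : G} (hg : Lift Γ (Equiv.swap a b) g) (hx : x ∉ Γ)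
    (hgx : g • x = x) : x = e := by
  obtain ⟨g', e', hL, -, -, huniq⟩ := exists_lift_swap hn hK hsemi hh hΓ ha hb hab
  rw [lift_unique hh hΓ hg hL] at hgx
  rw [huniq x hx hgx, huniq e he.1 (he.2 g' hL)]

include hn hK hsemi hh in
theorem ex_move {Γ : Finset α} (hΓ : Γ.card = k) {a b e : α} (ha : a ∈ Γ) (hb : b ∈ Γ) (hab : a ≠ b)
    (he : Ex G Γ a b e) {σ : Perm α} (hσ : ∀ x ∈ Γ, σ x ∈ Γ) (hσ2 : ∀ x, σ (σ x) = x) {x : G}
    (hx : Lift Γ σ x) {e' : α} (he' : Ex G Γ (σ a) (σ b) e') : x • e = e' := by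
  obtain ⟨g, -, hL, -, -, -⟩ := exists_lift_swap hn hK hsemi hh hΓ ha hb hab
  refine ex_unique hn hK hsemi hh hΓ (hσ a ha) (hσ b hb) (fun h => hab (σ.injective h)) he'
    (g := x * g * x⁻¹) (fun z hz => ?_) (hx.maps_out hσ he.1) ?_
  · have e1 : x⁻¹ • z = σ z := by
      rw [inv_smul_eq_iff, hx _ (hσ z hz), hσ2]
    rw [mul_smul, mul_smul, e1, hL _ (hσ z hz), hx _ (swap_maps ha hb _ (hσ z hz)),
      Equiv.swap_apply_apply σ a b, Perm.mul_apply, Perm.mul_apply,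
      show σ⁻¹ z = σ z from σ.symm_apply_eq.mpr (hσ2 z).symm]
  · rw [mul_smul, mul_smul, inv_smul_smul, he.2 g hL]

omit [Fintype α] in
theorem klein_identities {a b c d : α} (hab : a ≠ b) (hac : a ≠ c) (had : a ≠ d) (hbc : b ≠ c)
    (hbd : b ≠ d) (hcd : c ≠ d) :
    ((Equiv.swap a c * Equiv.swap b d) * (Equiv.swap a d * Equiv.swap b c) =
      Equiv.swap a b * Equiv.swap c d) ∧
    ((Equiv.swap a d * Equiv.swap b c) * (Equiv.swap a c * Equiv.swap b d) =
      Equiv.swap a b * Equiv.swap c d) ∧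
    (Equiv.swap a b * (Equiv.swap a c * Equiv.swap b d) =
      (Equiv.swap a d * Equiv.swap b c) * Equiv.swap a b) ∧
    (Equiv.swap a b * (Equiv.swap a d * Equiv.swap b c) =
      (Equiv.swap a c * Equiv.swap b d) * Equiv.swap a b) ∧
    (Equiv.swap a b * (Equiv.swap a b * Equiv.swap c d) =
      (Equiv.swap a b * Equiv.swap c d) * Equiv.swap a b) ∧
    ((Equiv.swap a d * Equiv.swap b c) * (Equiv.swap a d * Equiv.swap b c) = 1) ∧
    ((Equiv.swap a d * Equiv.swap b c) * (Equiv.swap a b * Equiv.swap c d) =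
      Equiv.swap a c * Equiv.swap b d) := by
  refine ⟨?_, ?_, ?_, ?_, ?_, ?_, ?_⟩ <;>
  · ext x
    by_cases xa : x = a
    · subst xa; simp [Equiv.swap_apply_of_ne_of_ne, hab, hac, had, hbc, hbd, hcd, hab.symm, hac.symm, had.symm, hbc.symm, hbd.symm, hcd.symm]
    by_cases xb : x = b
    · subst xb; simp [Equiv.swap_apply_of_ne_of_ne, hab, hac, had, hbc, hbd, hcd, hab.symm, hac.symm, had.symm, hbc.symm, hbd.symm, hcd.symm]
    by_cases xc : x = c
    · subst xc; simp [Equiv.swap_apply_of_ne_of_ne, hab, hac, had, hbc, hbd, hcd, hab.symm, hac.symm, had.symm, hbc.symm, hbd.symm, hcd.symm]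
    by_cases xd : x = d
    · subst xd; simp [Equiv.swap_apply_of_ne_of_ne, hab, hac, had, hbc, hbd, hcd, hab.symm, hac.symm, had.symm, hbc.symm, hbd.symm, hcd.symm]
    simp [Equiv.swap_apply_of_ne_of_ne, xa, xb, xc, xd]

include hn hK hsemi hh hdf in
theorem ex_eq {Γ : Finset α} (hΓ : Γ.card = k) {a b c d : α} (ha : a ∈ Γ) (hb : b ∈ Γ) (hc : c ∈ Γ)
    (hd : d ∈ Γ) (hab : a ≠ b) (hac : a ≠ c) (had : a ≠ d) (hbc : b ≠ c) (hbd : b ≠ d) (hcd : c ≠ d)
    {e₁ e₂ : α} (h1 : Ex G Γ a b e₁) (h2 : Ex G Γ a c e₂) : e₁ = e₂ := by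
  classical
  by_contra h12
  obtain ⟨s, -, hs, hs2, -, -⟩ := exists_lift_swap hn hK hsemi hh hΓ ha hb hab
  obtain ⟨s', f₁, hs', hs'2, hf1, -⟩ := exists_lift_swap hn hK hsemi hh hΓ hc hd hcd
  obtain ⟨p, -, hp, hp2, -, -⟩ := exists_lift_swap hn hK hsemi hh hΓ ha hc hac
  obtain ⟨p', f₂, hp', hp'2, hf2, -⟩ := exists_lift_swap hn hK hsemi hh hΓ hb hd hbd
  obtain ⟨q, e₃, hq, hq2, h3, -⟩ := exists_lift_swap hn hK hsemi hh hΓ ha hd had
  obtain ⟨q', f₃, hq', hq'2, hf3, -⟩ := exists_lift_swap hn hK hsemi hh hΓ hb hc hbc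
  have mv := fun {x y e : α} (hx : x ∈ Γ) (hy : y ∈ Γ) (hxy : x ≠ y) (he : Ex G Γ x y e)
      {i j : α} (hi : i ∈ Γ) (hj : j ∈ Γ) {g : G} (hg : Lift Γ (Equiv.swap i j) g) {e' : α}
      (he' : Ex G Γ (Equiv.swap i j x) (Equiv.swap i j y) e') =>
    ex_move hn hK hsemi hh hΓ hx hy hxy he (swap_maps hi hj) (Equiv.swap_apply_self i j) hg he'
  have ss : ∀ {x y e : α}, Ex G Γ x y e → Ex G Γ y x e := fun {x y e} h =>
    ⟨h.1, fun g hg => h.2 g (Equiv.swap_comm x y ▸ hg)⟩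
  -- disjoint transpositions share their point
  have a1 : s' • e₁ = e₁ := mv ha hb hab h1 hc hd hs' (by
    rwa [Equiv.swap_apply_of_ne_of_ne hac had, Equiv.swap_apply_of_ne_of_ne hbc hbd])
  have g1 : Ex G Γ c d e₁ := by
    rw [ex_unique hn hK hsemi hh hΓ hc hd hcd hf1 hs' h1.1 a1]; exact hf1
  have a2 : p' • e₂ = e₂ := mv ha hc hac h2 hb hd hp' (by
    rwa [Equiv.swap_apply_of_ne_of_ne hab had, Equiv.swap_apply_of_ne_of_ne hbc.symm hcd])
  have g2 : Ex G Γ b d e₂ := by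
    rw [ex_unique hn hK hsemi hh hΓ hb hd hbd hf2 hp' h2.1 a2]; exact hf2
  have a3 : q' • e₃ = e₃ := mv ha hd had h3 hb hc hq' (by
    rwa [Equiv.swap_apply_of_ne_of_ne hab hac, Equiv.swap_apply_of_ne_of_ne hbd.symm hcd.symm])
  have g3 : Ex G Γ b c e₃ := by
    rw [ex_unique hn hK hsemi hh hΓ hb hc hbc hf3 hq' h3.1 a3]; exact hf3
  have sE2 : s • e₂ = e₃ := mv ha hc hac h2 ha hb hs (by
    rwa [Equiv.swap_apply_left, Equiv.swap_apply_of_ne_of_ne hac.symm hbc.symm])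
  have sE1 : s • e₁ = e₁ := h1.2 s hs
  have sE3 : s • e₃ = e₂ := by rw [← sE2, ← mul_smul, hs2, one_smul]
  have s'E2 : s' • e₂ = e₃ := mv ha hc hac h2 hc hd hs' (by
    rwa [Equiv.swap_apply_of_ne_of_ne hac had, Equiv.swap_apply_left])
  have s'E3 : s' • e₃ = e₂ := by rw [← s'E2, ← mul_smul, hs'2, one_smul]
  have pE1 : p • e₁ = e₃ := mv ha hb hab h1 ha hc hp (by
    rw [Equiv.swap_apply_left, Equiv.swap_apply_of_ne_of_ne hab.symm hbc]; exact ss g3)
  have pE3 : p • e₃ = e₁ := by rw [← pE1, ← mul_smul, hp2, one_smul]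
  have p'E1 : p' • e₁ = e₃ := mv ha hb hab h1 hb hd hp' (by
    rwa [Equiv.swap_apply_of_ne_of_ne hab had, Equiv.swap_apply_left])
  have p'E3 : p' • e₃ = e₁ := by rw [← p'E1, ← mul_smul, hp'2, one_smul]
  have pE2 : p • e₂ = e₂ := h2.2 p hp
  have h13 : e₁ ≠ e₃ := fun h => h12 (by
    apply MulAction.injective s'
    show s' • e₁ = s' • e₂
    rw [a1, s'E2, h])
  have h23 : e₂ ≠ e₃ := fun h => h12 (by
    have := MulAction.injective p (show p • e₂ = p • e₃ by rw [← h])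
    rw [← pE2, h, pE3])
  -- the four-group
  have hsc := swap_maps hc hd
  have l1 : Lift Γ (Equiv.swap a b * Equiv.swap c d) (s * s') := hs.mul hs' hsc
  have l2 : Lift Γ (Equiv.swap a c * Equiv.swap b d) (p * p') := hp.mul hp' (swap_maps hb hd)
  have l3 : Lift Γ (Equiv.swap a d * Equiv.swap b c) (q * q') := hq.mul hq' (swap_maps hb hc)
  have m2 : ∀ x ∈ Γ, (Equiv.swap a c * Equiv.swap b d) x ∈ Γ := fun x hx =>
    swap_maps ha hc _ (swap_maps hb hd x hx)
  have m3 : ∀ x ∈ Γ, (Equiv.swap a d * Equiv.swap b c) x ∈ Γ := fun x hx =>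
    swap_maps ha hd _ (swap_maps hb hc x hx)
  have K := klein_identities hab hac had hbc hbd hcd
  have t12 : (p * p') * (q * q') = s * s' := by
    refine lift_unique hh hΓ (l2.mul l3 m3) ?_
    rw [K.1]
    exact l1
  have t32 : (q * q') * (p * p') = s * s' := by
    refine lift_unique hh hΓ (l3.mul l2 m2) ?_
    rw [K.2.1]
    exact l1
  have st2 : s * (p * p') = (q * q') * s := by
    refine lift_unique hh hΓ (hs.mul l2 m2) ?_
    rw [K.2.2.1]
    exact l3.mul hs (swap_maps ha hb)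
  have st3 : s * (q * q') = (p * p') * s := by
    refine lift_unique hh hΓ (hs.mul l3 m3) ?_
    rw [K.2.2.2.1]
    exact l2.mul hs (swap_maps ha hb)
  have st1 : s * (s * s') = (s * s') * s := by
    refine lift_unique hh hΓ (hs.mul l1 fun x hx => swap_maps ha hb _ (hsc x hx)) ?_
    rw [K.2.2.2.2.1]
    exact l1.mul hs (swap_maps ha hb)
  have v2 : p' • e₂ = e₂ := a2
  have f1 : ∀ x ∈ ({e₁, e₂, e₃} : Finset α), (s * s') • x = x := by
    simp only [Finset.mem_insert, Finset.mem_singleton, mul_smul]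
    rintro x (rfl | rfl | rfl)
    · rw [a1, sE1]
    · rw [s'E2, sE3]
    · rw [s'E3, sE2]
  have f2 : ∀ x ∈ ({e₁, e₂, e₃} : Finset α), (p * p') • x = x := by
    simp only [Finset.mem_insert, Finset.mem_singleton, mul_smul]
    rintro x (rfl | rfl | rfl)
    · rw [p'E1, pE3]
    · rw [v2, pE2]
    · rw [p'E3, pE1]
  have f3 : ∀ x ∈ ({e₁, e₂, e₃} : Finset α), (q * q') • x = x := by
    intro x hx
    have h := congrArg (· • x) t12
    simp only [mul_smul (p * p')] at h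
    rw [f1 x hx] at h
    exact MulAction.injective (p * p') (h.trans (f2 x hx).symm)
  have hcard3 : ({e₁, e₂, e₃} : Finset α).card = 3 :=
    Finset.card_eq_three.mpr ⟨_, _, _, h12, h13, h23, rfl⟩
  have hdisj : Disjoint Γ ({e₁, e₂, e₃} : Finset α) := by
    simp [Finset.disjoint_right, h1.1, h2.1, h3.1]
  have only : ∀ {i j u w : α} {t : G}, Dbl Γ i j u w t → (∀ x ∈ ({e₁, e₂, e₃} : Finset α), t • x = x) →
      ∀ x, x ∉ Γ → t • x = x → x ∈ ({e₁, e₂, e₃} : Finset α) := by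
    intro i j u w t D ht x hx htx
    have hcf := D.card_fix
    have hd' := hdf Γ i j u w t hΓ D
    have hsub : ({e₁, e₂, e₃} : Finset α) ⊆ fix t \ Γ := fun y hy =>
      Finset.mem_sdiff.mpr ⟨mem_fix.mpr (ht y hy), Finset.disjoint_right.mp hdisj hy⟩
    rw [Finset.eq_of_subset_of_card_le hsub (by omega)]
    exact Finset.mem_sdiff.mpr ⟨mem_fix.mpr htx, hx⟩
  have D1 : Dbl Γ a b c d (s * s') := by
    refine ⟨ha, hb, hc, hd, hab, hac, had, hbc, hbd, hcd, ?_, ?_, ?_, ?_, fun x hx xa xb xc xd => ?_⟩ <;>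
      first | rw [l1 _ ha] | rw [l1 _ hb] | rw [l1 _ hc] | rw [l1 _ hd] | rw [l1 _ hx]
    all_goals simp [Equiv.swap_apply_of_ne_of_ne, hab, hac, had, hbc, hbd, hcd, hab.symm, hac.symm,
      had.symm, hbc.symm, hbd.symm, hcd.symm, *]
  have D2 : Dbl Γ a c b d (p * p') := by
    refine ⟨ha, hc, hb, hd, hac, hab, had, hbc.symm, hcd, hbd, ?_, ?_, ?_, ?_, fun x hx xa xc xb xd => ?_⟩ <;>
      first | rw [l2 _ ha] | rw [l2 _ hc] | rw [l2 _ hb] | rw [l2 _ hd] | rw [l2 _ hx]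
    all_goals simp [Equiv.swap_apply_of_ne_of_ne, hab, hac, had, hbc, hbd, hcd, hab.symm, hac.symm,
      had.symm, hbc.symm, hbd.symm, hcd.symm, *]
  have D3 : Dbl Γ a d b c (q * q') := by
    refine ⟨ha, hd, hb, hc, had, hab, hac, hbd.symm, hcd.symm, hbc, ?_, ?_, ?_, ?_, fun x hx xa xd xb xc => ?_⟩ <;>
      first | rw [l3 _ ha] | rw [l3 _ hd] | rw [l3 _ hb] | rw [l3 _ hc] | rw [l3 _ hx]
    all_goals simp [Equiv.swap_apply_of_ne_of_ne, hab, hac, had, hbc, hbd, hcd, hab.symm, hac.symm,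
      had.symm, hbc.symm, hbd.symm, hcd.symm, *]
  set W := (Γ ∪ ({e₁, e₂, e₃} : Finset α))ᶜ with hW
  have hWc : W.card = 4 := by
    rw [hW, Finset.card_compl, Finset.card_union_of_disjoint hdisj, hcard3, hΓ, hn]; omega
  obtain ⟨w, hw⟩ := Finset.card_pos.mp (show 0 < W.card by omega)
  have hmemW : ∀ {x}, x ∈ W ↔ x ∉ Γ ∧ x ∉ ({e₁, e₂, e₃} : Finset α) := fun {x} => by
    rw [hW, Finset.mem_compl, Finset.mem_union, not_or]
  have keep : ∀ {σ : Perm α} {t : G}, Lift Γ σ t → (∀ x ∈ Γ, σ x ∈ Γ) →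
      (∀ x ∈ ({e₁, e₂, e₃} : Finset α), t • x ∈ ({e₁, e₂, e₃} : Finset α)) → ∀ x ∈ W, t • x ∈ W := by
    intro σ t hL hσ ht x hx
    obtain ⟨hx1, hx2⟩ := hmemW.mp hx
    refine hmemW.mpr ⟨hL.maps_out hσ hx1, fun h' => hx2 ?_⟩
    have himg : ({e₁, e₂, e₃} : Finset α).image (t • ·) = {e₁, e₂, e₃} :=
      Finset.eq_of_subset_of_card_le (Finset.image_subset_iff.mpr ht)
        (by rw [Finset.card_image_of_injective _ (MulAction.injective t)])
    obtain ⟨y, hy, hyx⟩ := Finset.mem_image.mp (himg.symm ▸ h')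
    exact MulAction.injective t hyx ▸ hy
  have mW1 := keep l1 (fun x hx => swap_maps ha hb _ (hsc x hx)) (fun x hx => by rw [f1 x hx]; exact hx)
  have mW2 := keep l2 m2 (fun x hx => by rw [f2 x hx]; exact hx)
  have mW3 := keep l3 m3 (fun x hx => by rw [f3 x hx]; exact hx)
  have mWs := keep hs (swap_maps ha hb) (fun x hx => by
    simp only [Finset.mem_insert, Finset.mem_singleton] at hx ⊢
    rcases hx with rfl | rfl | rfl
    exacts [Or.inl sE1, Or.inr (Or.inr sE2), Or.inr (Or.inl sE3)])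
  have n1 : ∀ x ∈ W, (s * s') • x ≠ x := fun x hx h' =>
    (hmemW.mp hx).2 (only D1 f1 x (hmemW.mp hx).1 h')
  have n2 : ∀ x ∈ W, (p * p') • x ≠ x := fun x hx h' =>
    (hmemW.mp hx).2 (only D2 f2 x (hmemW.mp hx).1 h')
  have n3 : ∀ x ∈ W, (q * q') • x ≠ x := fun x hx h' =>
    (hmemW.mp hx).2 (only D3 f3 x (hmemW.mp hx).1 h')
  have ns : ∀ x ∈ W, s • x ≠ x := fun x hx h' => by
    have := ex_unique hn hK hsemi hh hΓ ha hb hab h1 hs (hmemW.mp hx).1 h'
    exact (hmemW.mp hx).2 (by simp [this])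
  have d12 : (s * s') • w ≠ (p * p') • w := fun h' => n3 w hw (by
    apply MulAction.injective (p * p')
    show (p * p') • (q * q') • w = (p * p') • w
    rw [← mul_smul, t12, h'])
  have d13 : (s * s') • w ≠ (q * q') • w := fun h' => n2 w hw (by
    apply MulAction.injective (q * q')
    show (q * q') • (p * p') • w = (q * q') • w
    rw [← mul_smul, t32, h'])
  have d23 : (p * p') • w ≠ (q * q') • w := fun h' => by
    have e : w = ((q * q') * (p * p'))⁻¹ • ((q * q') • (q * q') • w) := by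
      rw [← h', ← mul_smul (q * q') (p * p'), inv_smul_smul]
    have hq2' : (q * q') * (q * q') = 1 := eq_of_agree (hh Γ hΓ) fun x hx => by
      rw [l3.mul l3 m3 x hx, K.2.2.2.2.2.1, one_smul, Perm.one_apply]
    rw [← mul_smul (q * q') (q * q'), hq2', one_smul, t32, eq_inv_smul_iff] at e
    exact n1 w hw e
  have hW4 : W = {w, (s * s') • w, (p * p') • w, (q * q') • w} := by
    refine (Finset.eq_of_subset_of_card_le ?_ ?_).symm
    · simp [Finset.insert_subset_iff, hw, mW1 w hw, mW2 w hw, mW3 w hw]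
    · rw [hWc, Finset.card_eq_four.mpr ⟨_, _, _, _, Ne.symm (n1 w hw), Ne.symm (n2 w hw),
        Ne.symm (n3 w hw), d12, d13, d23, rfl⟩]
  have hsw := mWs w hw
  rw [hW4] at hsw
  simp only [Finset.mem_insert, Finset.mem_singleton] at hsw
  rcases hsw with h' | h' | h' | h'
  · exact ns w hw h'
  · -- `s` fixes the second point
    refine ns _ (mW2 w hw) ?_
    rw [← mul_smul, st2, mul_smul (q * q') s, h', ← mul_smul, show (q * q') * (s * s') = p * p' by
      refine lift_unique hh hΓ (l3.mul l1 fun x hx => swap_maps ha hb _ (hsc x hx)) ?_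
      rw [K.2.2.2.2.2.2]
      exact l2]
  · refine n1 w hw ?_
    have h5 : s • (p * p') • w = w := by rw [← h', ← mul_smul, hs2, one_smul]
    rwa [← mul_smul, st2, mul_smul (q * q') s, h', ← mul_smul, t32] at h5
  · refine n1 w hw ?_
    have h5 : s • (q * q') • w = w := by rw [← h', ← mul_smul, hs2, one_smul]
    rwa [← mul_smul, st3, mul_smul (p * p') s, h', ← mul_smul, t12] at h5

include hk hn hK hsemi hh hdf in
/-- All transpositions of a suitable set are induced. -/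
theorem exists_good_seven : ∃ Δ : Finset α, Δ.card = k + 1 ∧
    ∀ a ∈ Δ, ∀ b ∈ Δ, a ≠ b → ∃ g : G, Lift Δ (Equiv.swap a b) g := by
  classical
  obtain ⟨Γ, -, hΓ⟩ := Finset.exists_subset_card_eq (s := (Finset.univ : Finset α)) (n := k)
    (by rw [Finset.card_univ]; omega)
  -- every transposition of a set of size `k` has the same outside fixed point
  have hsame : ∀ {Γ : Finset α}, Γ.card = k → ∀ {a b : α}, a ∈ Γ → b ∈ Γ → a ≠ b → ∀ {e : α},
      Ex G Γ a b e → ∀ {i j : α}, i ∈ Γ → j ∈ Γ → i ≠ j → Ex G Γ i j e := by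
    intro Γ hΓ
    have ss : ∀ {x y e : α}, Ex G Γ x y e → Ex G Γ y x e := fun {x y e} h =>
      ⟨h.1, fun g hg => h.2 g (Equiv.swap_comm x y ▸ hg)⟩
    have step : ∀ {a b : α}, a ∈ Γ → b ∈ Γ → a ≠ b → ∀ {e : α}, Ex G Γ a b e → ∀ {c : α}, c ∈ Γ →
        a ≠ c → Ex G Γ a c e := by
      intro a b ha hb hab e he c hc hac
      by_cases hbc : b = c
      · rwa [← hbc]
      obtain ⟨d, hd⟩ := Finset.card_pos.mp (show 0 < (((Γ.erase a).erase b).erase c).card by
        rw [Finset.card_erase_of_mem (by simp [hc, Ne.symm hac, Ne.symm hbc]),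
          Finset.card_erase_of_mem (by simp [hb, hab.symm]), Finset.card_erase_of_mem ha]
        omega)
      simp only [Finset.mem_erase] at hd
      obtain ⟨-, e', -, -, he', -⟩ := exists_lift_swap hn hK hsemi hh hΓ ha hc hac
      rw [ex_eq hn hK hsemi hh hdf hΓ ha hb hc hd.2.2.2 hab hac (Ne.symm hd.2.2.1) hbc
        (Ne.symm hd.2.1) (Ne.symm hd.1) he he']
      exact he'
    intro a b ha hb hab e he i j hi hj hij
    by_cases hia : i = a
    · subst hia; exact step ha hb hab he hj hij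
    have h1 : Ex G Γ i a e := ss (step ha hb hab he hi (Ne.symm hia))
    exact step hi ha hia h1 hj hij
  obtain ⟨a, b, ha, hb, hab⟩ : ∃ a b, a ∈ Γ ∧ b ∈ Γ ∧ a ≠ b := by
    obtain ⟨a, ha, b, hb, hab⟩ := Finset.one_lt_card.mp (show 1 < Γ.card by omega)
    exact ⟨a, b, ha, hb, hab⟩
  obtain ⟨-, e, -, -, he, -⟩ := exists_lift_swap hn hK hsemi hh hΓ ha hb hab
  refine ⟨insert e Γ, by rw [Finset.card_insert_of_notMem he.1, hΓ], ?_⟩
  have inner : ∀ i ∈ Γ, ∀ j ∈ Γ, i ≠ j → ∃ g : G, Lift (insert e Γ) (Equiv.swap i j) g := by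
    intro i hi j hj hij
    have hE := hsame hΓ ha hb hab he hi hj hij
    obtain ⟨g, -, hg, -, -, -⟩ := exists_lift_swap hn hK hsemi hh hΓ hi hj hij
    refine ⟨g, fun x hx => ?_⟩
    rcases Finset.mem_insert.mp hx with rfl | hx
    · rw [hE.2 g hg, Equiv.swap_apply_of_ne_of_ne] <;> rintro rfl
      exacts [he.1 hi, he.1 hj]
    · exact hg x hx
  -- transpositions moving `e`
  have outer : ∀ c ∈ Γ, ∃ g : G, Lift (insert e Γ) (Equiv.swap c e) g := by
    intro c hc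
    obtain ⟨d, hd⟩ := Finset.card_pos.mp (show 0 < (Γ.erase c).card by
      rw [Finset.card_erase_of_mem hc]; omega)
    obtain ⟨hdc, hdΓ⟩ := Finset.mem_erase.mp hd
    set Γ' := insert e (Γ.erase d) with hΓ'
    have heΓ' : e ∉ Γ.erase d := fun h => he.1 (Finset.mem_of_mem_erase h)
    have hΓ'c : Γ'.card = k := by
      rw [hΓ', Finset.card_insert_of_notMem heΓ', Finset.card_erase_of_mem hdΓ, hΓ]; omega
    obtain ⟨i, hi, j, hj, hij⟩ := Finset.one_lt_card.mp (show 1 < ((Γ.erase d).erase c).card by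
      rw [Finset.card_erase_of_mem (Finset.mem_erase.mpr ⟨hdc.symm, hc⟩), Finset.card_erase_of_mem hdΓ]
      omega)
    simp only [Finset.mem_erase] at hi hj
    obtain ⟨g, hg⟩ := inner i hi.2.2 j hj.2.2 hij
    have hgΓ' : Lift Γ' (Equiv.swap i j) g := fun x hx => hg x (by
      rcases Finset.mem_insert.mp hx with rfl | hx
      · exact Finset.mem_insert_self _ _
      · exact Finset.mem_insert_of_mem (Finset.mem_of_mem_erase hx))
    have hiΓ' : i ∈ Γ' := Finset.mem_insert_of_mem (Finset.mem_erase.mpr ⟨hi.2.1, hi.2.2⟩)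
    have hjΓ' : j ∈ Γ' := Finset.mem_insert_of_mem (Finset.mem_erase.mpr ⟨hj.2.1, hj.2.2⟩)
    have hdΓ' : d ∉ Γ' := by
      simp only [hΓ', Finset.mem_insert, Finset.mem_erase, not_or]
      exact ⟨fun h => he.1 (h ▸ hdΓ), fun h => h.1 rfl⟩
    obtain ⟨-, e', -, -, he', -⟩ := exists_lift_swap hn hK hsemi hh hΓ'c hiΓ' hjΓ' hij
    have hde : d = e' := ex_unique hn hK hsemi hh hΓ'c hiΓ' hjΓ' hij he' hgΓ' hdΓ' (by
      rw [hg d (Finset.mem_insert_of_mem hdΓ), Equiv.swap_apply_of_ne_of_ne hi.2.1.symm hj.2.1.symm])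
    subst hde
    have hcΓ' : c ∈ Γ' := Finset.mem_insert_of_mem (Finset.mem_erase.mpr ⟨hdc.symm, hc⟩)
    have hce : c ≠ e := fun h => he.1 (h ▸ hc)
    have hE := hsame hΓ'c hiΓ' hjΓ' hij he' hcΓ' (Finset.mem_insert_self e _) hce
    obtain ⟨g', -, hg', -, -, -⟩ := exists_lift_swap hn hK hsemi hh hΓ'c hcΓ' (Finset.mem_insert_self e _) hce
    refine ⟨g', fun x hx => ?_⟩
    by_cases hxd : x = d
    · subst hxd
      rw [hE.2 g' hg', Equiv.swap_apply_of_ne_of_ne hdc]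
      exact fun h => he.1 (h ▸ hdΓ)
    · refine hg' x ?_
      rcases Finset.mem_insert.mp hx with rfl | hx
      · exact Finset.mem_insert_self _ _
      · exact Finset.mem_insert_of_mem (Finset.mem_erase.mpr ⟨hxd, hx⟩)
  intro i hi j hj hij
  rcases Finset.mem_insert.mp hi with rfl | hi' <;> rcases Finset.mem_insert.mp hj with rfl | hj'
  · exact absurd rfl hij
  · obtain ⟨g, hg⟩ := outer j hj'
    exact ⟨g, Equiv.swap_comm j _ ▸ hg⟩
  · exact outer _ hi'
  · exact inner i hi' j hj' hij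

end CfsgLib.LW54
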