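import Cfsg.Agent.LW54.Homog

/-!
The small cases of the first form of the theorem of Livingstone and Wagner.
-/

set_option autoImplicit false

namespace CfsgLib.LW54

open MulAction

variable {G α : Type*} [Group G] [MulAction G α] [Fintype α] [DecidableEq α] [Finite G]

/-- An element of prime order generating a normal subgroup. -/
theorem exists_prime_element (X : Subgroup G) {p r : ℕ} [hp : Fact p.Prime] (hX : Nat.card X = p * r)
    (hr : ∀ d ∈ r.divisors, d % p = 1 → d = 1) (hpr : ¬ p ∣ r) :
    ∃ z ∈ X, orderOf z = p ∧ ∀ g ∈ X, g * z * g⁻¹ ∈ Subgroup.zpowers z := by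
  classical
  obtain ⟨z, hz⟩ := exists_prime_orderOf_dvd_card' (G := X) p (hX ▸ dvd_mul_right p r)
  obtain ⟨P, hP⟩ := (IsPGroup.of_card (n := 1) (by rw [Nat.card_zpowers, hz, pow_one]) :
    IsPGroup p (Subgroup.zpowers z)).exists_le_sylow
  have hPc : Nat.card P = p := by
    rw [P.card_eq_multiplicity, hX, Nat.factorization_mul hp.out.ne_zero (fun h => hpr (by rw [h]; exact dvd_zero p)),
      Finsupp.add_apply, hp.out.factorization_self, Nat.factorization_eq_zero_of_not_dvd hpr, pow_one]
  have hPz : (P : Subgroup X) = Subgroup.zpowers z :=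
    (Subgroup.eq_of_le_of_card_ge hP (by rw [Nat.card_zpowers, hz, hPc])).symm
  have hidx : (P : Subgroup X).index = r := by
    refine Nat.eq_of_mul_eq_mul_left hp.out.pos ?_
    have h := (P : Subgroup X).card_mul_index
    rwa [hPc, hX] at h
  have hn1 : Nat.card (Sylow p X) = 1 := by
    refine hr _ (Nat.mem_divisors.mpr ⟨hidx ▸ P.card_dvd_index, fun h => hpr (by rw [h]; exact dvd_zero p)⟩) ?_
    rw [← Nat.one_mod_eq_one.mpr hp.out.ne_one]
    exact card_sylow_modEq_one p X
  haveI := (Nat.card_eq_one_iff_unique.mp hn1).1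
  haveI : (P : Subgroup X).Normal := P.normal_of_subsingleton
  refine ⟨z.1, z.2, by rw [Subgroup.orderOf_coe, hz], fun g hg => ?_⟩
  have h : (⟨g, hg⟩ : X) * z * (⟨g, hg⟩ : X)⁻¹ ∈ Subgroup.zpowers z :=
    hPz ▸ Subgroup.Normal.conj_mem inferInstance z (hPz ▸ Subgroup.mem_zpowers z) _
  obtain ⟨i, hi⟩ := Subgroup.mem_zpowers_iff.mp h
  exact Subgroup.mem_zpowers_iff.mpr ⟨i, by simpa using congrArg Subtype.val hi⟩

variable (h4 : ∀ Γ : Finset α, Γ.card = 4 → Nat.card (fixingSubgroup G (Γ : Set α)) = 1)

include h4 in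
theorem eq_one_of_four {g : G} {a b c d : α} (hab : a ≠ b) (hac : a ≠ c) (had : a ≠ d) (hbc : b ≠ c)
    (hbd : b ≠ d) (hcd : c ≠ d) (ha : g • a = a) (hb : g • b = b) (hc : g • c = c) (hd : g • d = d) :
    g = 1 :=
  eq_of_agree (h4 {a, b, c, d} (Finset.card_eq_four.mpr ⟨a, b, c, d, hab, hac, had, hbc, hbd, hcd, rfl⟩))
    fun x hx => by
      simp only [Finset.mem_insert, Finset.mem_singleton] at hx
      rcases hx with rfl | rfl | rfl | rfl <;> simpa

include h4 in
theorem not_twentyfour (hn : Fintype.card α = 24) (hK : KT G α 3)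
    (hG : Nat.card G = (24).descFactorial 3 * 7) : False := by
  classical
  haveI : Fact (23).Prime := ⟨by norm_num⟩
  obtain ⟨c⟩ : Nonempty α := Fintype.card_pos_iff.mp (by omega)
  have hX : Nat.card (fixingSubgroup G (({c} : Finset α) : Set α)) = 23 * 154 := by
    have := card_eq_descFactorial_mul (hK.mono (by omega : 1 ≤ 3)) (Finset.card_singleton c)
    rw [hG, hn, show Nat.descFactorial 24 3 = 12144 by rfl, show Nat.descFactorial 24 1 = 24 by rfl] at this
    omega
  obtain ⟨z, hzX, hz, hnorm⟩ := exists_prime_element _ hX (by decide) (by norm_num)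
  have hzc : z • c = c := mem_fixing.mp hzX c (Finset.mem_singleton_self c)
  obtain ⟨d, hd⟩ : ∃ d : α, z • d ≠ d := by
    refine Classical.byContradiction fun hall => ?_
    push_neg at hall
    obtain ⟨Γ, -, hΓ⟩ := Finset.exists_subset_card_eq (s := (Finset.univ : Finset α)) (n := 4)
      (by rw [Finset.card_univ]; omega)
    have : z = 1 := eq_of_agree (h4 Γ hΓ) fun x _ => by rw [one_smul]; exact hall x
    rw [this, orderOf_one] at hz
    omega
  have hcd : c ≠ d := fun h => hd (h ▸ hzc)
  have hz2 : z • z • d ≠ d := fun h => hd (by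
    have h2 : ∀ i : ℕ, (z * z) ^ i • d = d := fun i => by
      induction i with
      | zero => rw [pow_zero, one_smul]
      | succ i ih => rw [pow_succ, mul_smul, mul_smul, h, ih]
    have e : (z * z) ^ 12 = z := by
      rw [← pow_two, ← pow_mul]
      calc z ^ (2 * 12) = z ^ orderOf z * z := by rw [hz, ← pow_succ]
        _ = z := by rw [pow_orderOf_eq_one, one_mul]
    have := h2 12
    rwa [e] at this)
  set Y := fixingSubgroup G (({c, d} : Finset α) : Set α) with hY
  have hYc : Nat.card Y = 154 := by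
    have := card_eq_descFactorial_mul (hK.mono (by omega : 2 ≤ 3)) (Finset.card_pair hcd)
    rw [hG, hn, show Nat.descFactorial 24 3 = 12144 by rfl, show Nat.descFactorial 24 2 = 552 by rfl, ← hY] at this
    omega
  have hYX : ∀ g ∈ Y, g ∈ fixingSubgroup G (({c} : Finset α) : Set α) := fun g hg =>
    mem_fixing.mpr fun a ha => mem_fixing.mp hg a (by
      rw [Finset.mem_singleton] at ha; simp [ha])
  have hle : Nat.card Y ≤ Nat.card (Subgroup.zpowers z) := by
    refine Nat.card_le_card_of_injective (fun g => ⟨g.1 * z * g.1⁻¹, hnorm _ (hYX _ g.2)⟩) ?_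
    intro g g' hgg
    have h := congrArg Subtype.val hgg
    simp only at h
    have hc : Commute z (g'.1⁻¹ * g.1) := by
      show z * _ = _ * z
      calc z * (g'.1⁻¹ * g.1) = g'.1⁻¹ * (g'.1 * z * g'.1⁻¹) * g.1 := by group
        _ = g'.1⁻¹ * (g.1 * z * g.1⁻¹) * g.1 := by rw [h]
        _ = _ := by group
    set u := g'.1⁻¹ * g.1 with hu
    have huY : u ∈ Y := mul_mem (inv_mem g'.2) g.2
    have uc := mem_fixing.mp huY c (by simp)
    have ud := mem_fixing.mp huY d (by simp)
    have uz : u • z • d = z • d := by rw [← mul_smul, ← hc.eq, mul_smul, ud]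
    have uzz : u • z • z • d = z • z • d := by rw [← mul_smul u, ← hc.eq, mul_smul, uz]
    have hu1 : u = 1 := eq_one_of_four h4 hcd (fun h => hcd (MulAction.injective z (hzc.trans h)))
      (fun h => hcd (MulAction.injective z (MulAction.injective z (show z • z • c = z • z • d by rw [hzc, hzc]; exact h))))
      (Ne.symm hd) (Ne.symm hz2) (fun h => hd (MulAction.injective z h).symm) uc ud uz uzz
    exact Subtype.ext (inv_mul_eq_one.mp hu1).symm
  rw [hYc, Nat.card_zpowers, hz] at hle
  omega

include h4 in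
theorem not_nineteen (hn : Fintype.card α = 19) (hK : KT G α 3)
    (hG : Nat.card G = (19).descFactorial 3 * 4) : False := by
  classical
  haveI : Fact (17).Prime := ⟨by norm_num⟩
  haveI := Fintype.ofFinite G
  have h3 : ∀ Γ : Finset α, Γ.card = 3 → Nat.card (fixingSubgroup G (Γ : Set α)) = 4 := by
    intro Γ hΓ
    have := card_eq_descFactorial_mul hK hΓ
    rw [hG, hn] at this
    exact (Nat.eq_of_mul_eq_mul_left (Nat.descFactorial_pos.mpr (by omega)) this).symm
  set I := Finset.univ.filter fun g : G => g * g = 1 ∧ (fix g : Finset α).card = 3 with hI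
  have hmemI : ∀ {g}, g ∈ I ↔ g * g = 1 ∧ (fix g : Finset α).card = 3 := fun {g} => by simp [hI]
  -- each three points carry exactly one involution
  have hone : ∀ Γ : Finset α, Γ.card = 3 → (I.filter fun g => ∀ x ∈ Γ, g • x = x).card = 1 := by
    intro Γ hΓ
    obtain ⟨a, b, c, hab, hac, hbc, rfl⟩ := Finset.card_eq_three.mp hΓ
    refine le_antisymm (Finset.card_le_one.mpr ?_) (Finset.card_pos.mpr ?_)
    · -- both invert an element of order 17
      have hY : Nat.card (fixingSubgroup G (({a, b} : Finset α) : Set α)) = 17 * 4 := by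
        have := card_eq_descFactorial_mul (hK.mono (by omega : 2 ≤ 3)) (Finset.card_pair hab)
        rw [hG, hn, show Nat.descFactorial 19 3 = 5814 by rfl, show Nat.descFactorial 19 2 = 342 by rfl] at this
        omega
      obtain ⟨z, hzY, hz, hnorm⟩ := exists_prime_element _ hY (by decide) (by norm_num)
      have za := mem_fixing.mp hzY a (by simp)
      have zb := mem_fixing.mp hzY b (by simp)
      have zc : z • c ≠ c := by
        intro h
        have hm : z ∈ fixingSubgroup G (({a, b, c} : Finset α) : Set α) := mem_fixing.mpr fun x hx => by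
          simp only [Finset.mem_insert, Finset.mem_singleton] at hx
          rcases hx with rfl | rfl | rfl <;> assumption
        have := Subgroup.orderOf_dvd_natCard _ hm
        rw [hz, h3 _ hΓ] at this
        norm_num at this
      have hcent : ∀ u : G, u • a = a → u • b = b → u • c = c → Commute u z → u = 1 := by
        intro u ua ub uc hu
        have uz : u • z • c = z • c := by rw [← mul_smul, hu.eq, mul_smul, uc]
        exact eq_one_of_four h4 hab hac (fun h => hac (MulAction.injective z (za.trans h))) hbc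
          (fun h => hbc (MulAction.injective z (zb.trans h))) (Ne.symm zc) ua ub uc uz
      have hinv : ∀ g ∈ I.filter (fun g => ∀ x ∈ ({a, b, c} : Finset α), g • x = x),
          g * z * g⁻¹ = z⁻¹ := by
        intro g hg
        obtain ⟨hg, gfix⟩ := Finset.mem_filter.mp hg
        obtain ⟨g2, gc⟩ := hmemI.mp hg
        have g1 : g ≠ 1 := fun h => by
          rw [h] at gc
          have : (fix (1 : G) : Finset α) = Finset.univ := Finset.eq_univ_of_forall fun x => mem_fix.mpr (one_smul _ x)
          rw [this, Finset.card_univ] at gc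
          omega
        have hgY : g ∈ fixingSubgroup G (({a, b} : Finset α) : Set α) := mem_fixing.mpr fun x hx => by
          simp only [Finset.mem_insert, Finset.mem_singleton] at hx
          rcases hx with rfl | rfl <;> exact gfix _ (by simp)
        obtain ⟨i, hi⟩ := Subgroup.mem_zpowers_iff.mp (hnorm g hgY)
        have h2 : z ^ (i * i) = z := by
          calc z ^ (i * i) = (g * z * g⁻¹) ^ i := by rw [zpow_mul, hi]
            _ = g * (g * z * g⁻¹) * g⁻¹ := by rw [conj_zpow, hi]
            _ = (g * g) * z * (g * g)⁻¹ := by group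
            _ = z := by rw [g2]; group
        have h2' : ((i : ZMod 17)) ^ 2 = 1 := by
          have h5 : z ^ (i * i - 1) = 1 := by rw [zpow_sub_one, h2, mul_inv_cancel]
          have h6 := orderOf_dvd_iff_zpow_eq_one.mpr h5
          rw [hz] at h6
          have h7 := (ZMod.intCast_zmod_eq_zero_iff_dvd (i * i - 1) 17).mpr h6
          push_cast at h7
          rw [pow_two]
          linear_combination h7
        have cast_eq : ∀ j : ℤ, (i : ZMod 17) = (j : ZMod 17) → g * z * g⁻¹ = z ^ j := by
          intro j hj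
          rw [← hi, ← mul_inv_eq_one, ← zpow_neg, ← zpow_add, ← orderOf_dvd_iff_zpow_eq_one, hz]
          refine (ZMod.intCast_zmod_eq_zero_iff_dvd _ 17).mp ?_
          push_cast
          rw [hj]; ring
        rcases sq_eq_one_iff.mp h2' with h | h
        · exfalso
          have := cast_eq 1 (by simpa using h)
          rw [zpow_one] at this
          exact g1 (hcent g (gfix a (by simp)) (gfix b (by simp)) (gfix c (by simp))
            (mul_inv_eq_iff_eq_mul.mp this))
        · rw [cast_eq (-1) (by simpa using h), zpow_neg_one]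
      intro g hg g' hg'
      have e := hinv g hg
      have e' := hinv g' hg'
      have gf := (Finset.mem_filter.mp hg).2
      have gf' := (Finset.mem_filter.mp hg').2
      refine (inv_mul_eq_one.mp ?_)
      have hfix : ∀ x ∈ ({a, b, c} : Finset α), (g⁻¹ * g') • x = x := fun x hx => by
        rw [mul_smul, gf' x hx, inv_smul_eq_iff, gf x hx]
      refine hcent _ (hfix a (by simp)) (hfix b (by simp)) (hfix c (by simp)) ?_
      show g⁻¹ * g' * z = z * (g⁻¹ * g')
      calc g⁻¹ * g' * z = g⁻¹ * (g' * z * g'⁻¹) * g' := by group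
        _ = g⁻¹ * (g * z * g⁻¹) * g' := by rw [e', ← e]
        _ = _ := by group
    · haveI : Fact (2).Prime := ⟨Nat.prime_two⟩
      obtain ⟨⟨v, hvH⟩, hv⟩ := exists_prime_orderOf_dvd_card'
        (G := fixingSubgroup G (({a, b, c} : Finset α) : Set α)) 2 (by rw [h3 _ hΓ]; norm_num)
      rw [Subgroup.orderOf_mk] at hv
      have v2 : v * v = 1 := by rw [← pow_two, ← hv, pow_orderOf_eq_one]
      refine ⟨v, Finset.mem_filter.mpr ⟨hmemI.mpr ⟨v2, ?_⟩, fun x hx => mem_fixing.mp hvH x hx⟩⟩
      refine le_antisymm ?_ (hΓ ▸ Finset.card_le_card fun x hx => mem_fix.mpr (mem_fixing.mp hvH x hx))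
      by_contra hlt
      obtain ⟨Γ4, hsub, hΓ4⟩ := Finset.exists_subset_card_eq (s := (fix v : Finset α)) (n := 4) (by omega)
      have : v = 1 := eq_of_agree (h4 Γ4 hΓ4) fun x hx => by rw [one_smul]; exact mem_fix.mp (hsub hx)
      rw [this, orderOf_one] at hv
      omega
  -- counting
  have hmov : ∀ g ∈ I, ((Finset.univ : Finset α).filter fun x => g • x ≠ x).card = 16 := by
    intro g hg
    have h5 := Finset.card_filter_add_card_filter_not (s := (Finset.univ : Finset α)) (fun x => g • x = x)
    rw [Finset.card_univ, hn] at h5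
    have h6 := (hmemI.mp hg).2
    rw [fix] at h6
    simp only [ne_eq]
    omega
  have hIcard : I.card = (19).choose 3 := by
    have h1 := Finset.sum_card_bipartiteAbove_eq_sum_card_bipartiteBelow
      (fun (g : G) (P : Finset α) => ∀ x ∈ P, g • x = x) (s := I) (t := (Finset.univ : Finset α).powersetCard 3)
    simp only [Finset.bipartiteBelow] at h1
    rw [Finset.sum_congr rfl fun P hP => hone P (Finset.mem_powersetCard.mp hP).2, ← Finset.card_eq_sum_ones,
      Finset.card_powersetCard, Finset.card_univ, hn] at h1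
    rw [← h1, Finset.card_eq_sum_ones]
    refine Finset.sum_congr rfl fun g hg => ?_
    symm
    rw [Finset.bipartiteAbove, Finset.card_eq_one]
    refine ⟨fix g, ?_⟩
    ext P
    simp only [Finset.mem_filter, Finset.mem_powersetCard, Finset.mem_singleton]
    constructor
    · rintro ⟨⟨-, hP⟩, hfix⟩
      exact Finset.eq_of_subset_of_card_le (fun x hx => mem_fix.mpr (hfix x hx)) (by rw [hP, (hmemI.mp hg).2])
    · rintro rfl
      exact ⟨⟨Finset.subset_univ _, (hmemI.mp hg).2⟩, fun x hx => mem_fix.mp hx⟩
  obtain ⟨a₀, b₀, hab₀⟩ := Fintype.exists_pair_of_one_lt_card (show 1 < Fintype.card α by omega)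
  set e := (I.filter fun g => g • a₀ = b₀).card with he
  have hconst : ∀ cd ∈ (Finset.univ : Finset α).offDiag, (I.filter fun g => g • cd.1 = cd.2).card = e := by
    intro cd hcd
    have hne : cd.1 ≠ cd.2 := (Finset.mem_offDiag.mp hcd).2.2
    obtain ⟨g, hg⟩ := (hK.mono (by omega : 2 ≤ 3)) {a₀, b₀} (fun x => if x = a₀ then cd.1 else cd.2)
      (by rw [Finset.card_pair hab₀]) (by
        intro x hx y hy hxy
        simp only [Finset.coe_insert, Finset.coe_singleton, Set.mem_insert_iff, Set.mem_singleton_iff] at hx hy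
        rcases hx with rfl | rfl <;> rcases hy with rfl | rfl <;>
          simp_all [hab₀.symm, hne.symm])
    have ga : g • a₀ = cd.1 := by rw [hg a₀ (by simp)]; simp
    have gb : g • b₀ = cd.2 := by rw [hg b₀ (by simp)]; simp [hab₀.symm]
    refine Finset.card_nbij' (fun x => g⁻¹ * x * g) (fun x => g * x * g⁻¹) ?_ ?_ ?_ ?_
    · intro x hx
      simp only [Finset.coe_filter, Set.mem_ofPred_eq] at hx ⊢
      obtain ⟨h5, h6⟩ := hmemI.mp hx.1
      refine ⟨hmemI.mpr ⟨?_, ?_⟩, ?_⟩
      · rw [show g⁻¹ * x * g * (g⁻¹ * x * g) = g⁻¹ * (x * x) * g by group, h5]; group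
      · rw [← card_fix_conj (α := α) g (g⁻¹ * x * g), show g * (g⁻¹ * x * g) * g⁻¹ = x by group, h6]
      · rw [mul_smul, mul_smul, ga, hx.2, ← gb, inv_smul_smul]
    · intro x hx
      simp only [Finset.coe_filter, Set.mem_ofPred_eq] at hx ⊢
      obtain ⟨h5, h6⟩ := hmemI.mp hx.1
      refine ⟨hmemI.mpr ⟨?_, by rw [card_fix_conj, h6]⟩, ?_⟩
      · rw [show g * x * g⁻¹ * (g * x * g⁻¹) = g * (x * x) * g⁻¹ by group, h5]; group
      · rw [mul_smul, mul_smul, ← ga, inv_smul_smul, hx.2, gb]
    · intro x _; group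
    · intro x _; group
  have hW := fun (g : G) (_ : g ∈ I) (c : α) (_ : c ∈ (Finset.univ : Finset α)) => Finset.mem_univ (g • c)
  have h1 := (count_moved (h := e) hW hmov).1 fun cd hcd => (hconst cd hcd).le
  have h2 := (count_moved (h := e) hW hmov).2 fun cd hcd => (hconst cd hcd).ge
  rw [hIcard, Finset.card_univ, hn, show Nat.choose 19 3 = 969 by rfl] at h1 h2
  omega

/-- The cases `k = 3, 4, 5`. -/
theorem kt_small [FaithfulSMul G α] {j : ℕ} (hj : 1 ≤ j) (hj3 : j ≤ 3)
    (hn : 2 * (j + 2) ≤ Fintype.card α) (hK : KT G α j) (h1 : Homog G α (j + 1))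
    (h2 : Homog G α (j + 2)) : KT G α (j + 1) := by
  by_contra hnot
  obtain ⟨w, L, s, hnw, hw2, hwdvd, hL, heq, htriv, hG⟩ := homog_data hj (by omega) hK h1 h2 hnot
  have hmem := Nat.mem_divisors.mpr ⟨hwdvd, (Nat.factorial_pos (j + 1)).ne'⟩
  rcases (show j = 1 ∨ j = 2 ∨ j = 3 by omega) with rfl | rfl | rfl
  · rw [show Nat.factorial (1 + 1) = 2 by rfl, show Nat.divisors 2 = {1, 2} by rfl] at hmem
    simp only [Finset.mem_insert, Finset.mem_singleton] at hmem
    obtain rfl : w = 2 := by omega
    rw [show Nat.choose (1 + 2) 2 = 3 by rfl] at heq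
    have : s ≤ 1 := by
      by_contra hs
      have : 2 * (2 * L - 1) ≤ s * (2 * L - 1) := Nat.mul_le_mul_right _ (by omega)
      omega
    interval_cases s <;> omega
  · rw [show Nat.factorial (2 + 1) = 6 by rfl, show Nat.divisors 6 = {1, 2, 3, 6} by rfl] at hmem
    simp only [Finset.mem_insert, Finset.mem_singleton] at hmem
    rw [show Nat.choose (2 + 2) 2 = 6 by rfl] at heq
    have : s ≤ 2 := by
      by_contra hs
      have h3 : 3 * (w * L - 1) ≤ s * (w * L - 1) := Nat.mul_le_mul_right _ (by omega)
      have h4 : 2 * L ≤ w * L := Nat.mul_le_mul_right _ hw2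
      omega
    rcases (show w = 2 ∨ w = 3 ∨ w = 6 by omega) with rfl | rfl | rfl
    · interval_cases s <;> omega
    · interval_cases s <;> omega
    · have hL1 : L = 1 := by interval_cases s <;> omega
      subst hL1
      have h3 := choose_dvd_card h2 (by omega)
      rw [hG, show Fintype.card α = 8 by omega] at h3
      norm_num [Nat.descFactorial, Nat.choose] at h3
  · rw [show Nat.factorial (3 + 1) = 24 by rfl,
      show Nat.divisors 24 = {1, 2, 3, 4, 6, 8, 12, 24} by rfl] at hmem
    simp only [Finset.mem_insert, Finset.mem_singleton] at hmem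
    rw [show Nat.choose (3 + 2) 2 = 10 by rfl] at heq
    have : s ≤ 4 := by
      by_contra hs
      have h3 : 5 * (w * L - 1) ≤ s * (w * L - 1) := Nat.mul_le_mul_right _ (by omega)
      have h4 : 2 * L ≤ w * L := Nat.mul_le_mul_right _ hw2
      omega
    have hcases : (w = 3 ∧ L = 7) ∨ (w = 4 ∧ L = 4) ∨ (L = 1 ∧ 8 ≤ w) := by
      rcases (show w = 2 ∨ w = 3 ∨ w = 4 ∨ w = 6 ∨ w = 8 ∨ w = 12 ∨ w = 24 by omega) with
        rfl | rfl | rfl | rfl | rfl | rfl | rfl <;> interval_cases s <;> omega
    rcases hcases with ⟨rfl, rfl⟩ | ⟨rfl, rfl⟩ | ⟨rfl, hw8⟩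
    · exact not_twentyfour htriv (by omega) hK (by rw [hG, show Fintype.card α = 24 by omega])
    · exact not_nineteen htriv (by omega) hK (by rw [hG, show Fintype.card α = 19 by omega])
    · have h3 := choose_dvd_card h2 (by omega)
      rw [hG] at h3
      rcases (show w = 8 ∨ w = 12 ∨ w = 24 by omega) with rfl | rfl | rfl
      · rw [show Fintype.card α = 11 by omega] at h3
        norm_num [Nat.descFactorial, Nat.choose] at h3
      · rw [show Fintype.card α = 15 by omega] at h3
        norm_num [Nat.descFactorial, Nat.choose] at h3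
      · rw [show Fintype.card α = 27 by omega] at h3
        norm_num [Nat.descFactorial, Nat.choose] at h3

end CfsgLib.LW54
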